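import Cfsg.Agent.H873.Tv

/-!
Calculus for overgroups `M` of a tensor factor: `InM M X` says `1 + X ∈ M`; for an algebra homomorphism
`ρ : M_m(F) → M_κ(F)` we write `rk ρ a α = ρ (a αᵀ)` and `co ρ α b Y` for the coefficient of `Y` at `(α, b)`,
an element of the centraliser of the image of `ρ`.
-/

set_option autoImplicit false
set_option linter.unusedSectionVars false

namespace Cfsg.Agent.H873.Wr

open Matrix

variable {κ : Type} [Fintype κ] [DecidableEq κ] {F : Type*} [Field F] {m : ℕ}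

/-! ### `InM` -/

/-- `1 + X ∈ M`. -/
def InM (M : Subgroup (GL κ F)) (X : Matrix κ κ F) : Prop := ∃ g ∈ M, (g : Matrix κ κ F) = 1 + X

section InM

variable {M : Subgroup (GL κ F)} {X Y : Matrix κ κ F}

theorem InM.conj {g : GL κ F} (hg : g ∈ M) (h : InM M X) :
    InM M ((g : Matrix κ κ F) * X * ((g⁻¹ : GL κ F) : Matrix κ κ F)) := by
  obtain ⟨x, hx, he⟩ := h
  refine ⟨g * x * g⁻¹, M.mul_mem (M.mul_mem hg hx) (M.inv_mem hg), ?_⟩
  rw [Units.val_mul, Units.val_mul, he, mul_add, mul_one, add_mul, Units.mul_inv]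

theorem InM.conj' {g : GL κ F} (hg : g ∈ M) (h : InM M X) :
    InM M (((g⁻¹ : GL κ F) : Matrix κ κ F) * X * (g : Matrix κ κ F)) := by
  have := h.conj (M.inv_mem hg)
  rwa [inv_inv] at this

theorem InM.mul (hX : InM M X) (hY : InM M Y) : InM M (X + Y + X * Y) := by
  obtain ⟨x, hx, he⟩ := hX
  obtain ⟨y, hy, he'⟩ := hY
  refine ⟨x * y, M.mul_mem hx hy, ?_⟩
  rw [Units.val_mul, he, he']
  noncomm_ring

theorem InM.add (hX : InM M X) (hY : InM M Y) (h : X * Y = 0) : InM M (X + Y) := by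
  have := hX.mul hY
  rwa [h, add_zero] at this

theorem inM_zero : InM M 0 := ⟨1, M.one_mem, by simp⟩

theorem InM.neg (hX : InM M X) (h : X * X = 0) : InM M (-X) := by
  obtain ⟨x, hx, he⟩ := hX
  refine ⟨x⁻¹, M.inv_mem hx, ?_⟩
  have h1 : (x : Matrix κ κ F) * (1 + -X) = 1 := by
    rw [he]
    have : (1 + X) * (1 + -X) = 1 - X * X := by noncomm_ring
    rw [this, h, sub_zero]
  calc ((x⁻¹ : GL κ F) : Matrix κ κ F) = ((x⁻¹ : GL κ F) : Matrix κ κ F) * ((x : Matrix κ κ F) * (1 + -X)) := by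
        rw [h1, mul_one]
    _ = 1 + -X := by rw [← mul_assoc, Units.inv_mul, one_mul]

theorem InM.sub (hX : InM M X) (hY : InM M Y) (hYY : Y * Y = 0) (h : X * Y = 0) : InM M (X - Y) := by
  have := hX.add (hY.neg hYY) (by rw [mul_neg, h, neg_zero])
  rwa [← sub_eq_add_neg] at this

/-- Commutator, first form: `X² = 0`, `X Y = 0` give `1 + Y X ∈ M`. -/
theorem InM.comm_l (hX : InM M X) (hY : InM M Y) (hXX : X * X = 0) (hXY : X * Y = 0) :
    InM M (Y * X) := by
  obtain ⟨g, hg, he⟩ := hY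
  have h1 := hX.conj hg
  have h2 : X * ((g⁻¹ : GL κ F) : Matrix κ κ F) = X := by
    have : X * (g : Matrix κ κ F) = X := by rw [he, mul_add, mul_one, hXY, add_zero]
    calc X * ((g⁻¹ : GL κ F) : Matrix κ κ F) = X * (g : Matrix κ κ F) * ((g⁻¹ : GL κ F) : Matrix κ κ F) := by
          rw [this]
      _ = X := by rw [mul_assoc, Units.mul_inv, mul_one]
  rw [mul_assoc, h2, he, add_mul, one_mul] at h1
  have h3 := h1.sub hX hXX (by rw [add_mul, mul_assoc, hXX, mul_zero, add_zero])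
  rwa [add_sub_cancel_left] at h3

/-- Commutator, second form: `X² = 0`, `Y X = 0` give `1 + X Y ∈ M`. -/
theorem InM.comm_r (hX : InM M X) (hY : InM M Y) (hXX : X * X = 0) (hYX : Y * X = 0) :
    InM M (X * Y) := by
  obtain ⟨g, hg, he⟩ := hY
  have h1 := hX.conj' hg
  have h2 : ((g⁻¹ : GL κ F) : Matrix κ κ F) * X = X := by
    have : (g : Matrix κ κ F) * X = X := by rw [he, add_mul, one_mul, hYX, add_zero]
    calc ((g⁻¹ : GL κ F) : Matrix κ κ F) * X = ((g⁻¹ : GL κ F) : Matrix κ κ F) * ((g : Matrix κ κ F) * X) := by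
          rw [this]
      _ = X := by rw [← mul_assoc, Units.inv_mul, one_mul]
  rw [h2, he, mul_add, mul_one] at h1
  have h3 := (hX.neg hXX).add h1 (by rw [neg_mul, mul_add, ← mul_assoc, hXX, zero_mul, add_zero, neg_zero])
  rwa [neg_add_cancel_left] at h3

theorem InM.mono {N : Subgroup (GL κ F)} (h : M ≤ N) (hX : InM M X) : InM N X := by
  obtain ⟨g, hg, he⟩ := hX
  exact ⟨g, h hg, he⟩

end InM

/-! ### Vectors -/

section Vec

variable {ι : Type} [Fintype ι] [DecidableEq ι]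

theorem exists_dot_one' {a : ι → F} (h : a ≠ 0) : ∃ α : ι → F, α ⬝ᵥ a = 1 := by
  obtain ⟨i, hi⟩ := Function.ne_iff.1 h
  refine ⟨Pi.single i (a i)⁻¹, ?_⟩
  rw [single_dotProduct, inv_mul_cancel₀ hi]

theorem exists_dot_one {α : ι → F} (h : α ≠ 0) : ∃ a : ι → F, α ⬝ᵥ a = 1 := by
  obtain ⟨u, hu⟩ := exists_dot_one' h
  exact ⟨u, by rw [dotProduct_comm, hu]⟩

theorem vmv_smul_left (c : F) (a α : ι → F) : vecMulVec (c • a) α = c • vecMulVec a α := by
  ext i j; simp [vecMulVec_apply, mul_assoc]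

theorem vmv_smul_right (c : F) (a α : ι → F) : vecMulVec a (c • α) = c • vecMulVec a α := by
  ext i j; simp [vecMulVec_apply]; ring

theorem exists_two {a b : Fin m → F} (hm : 3 ≤ m) : ∃ β : Fin m → F, β ≠ 0 ∧ β ⬝ᵥ a = 0 ∧ β ⬝ᵥ b = 0 := by
  let f : (Fin m → F) →ₗ[F] (Fin 2 → F) := Matrix.toLin' (Matrix.of ![a, b])
  have h1 : LinearMap.ker f ≠ ⊥ := by
    apply LinearMap.ker_ne_bot_of_finrank_lt
    simp
    omega
  obtain ⟨β, hβ, h0⟩ := Submodule.exists_mem_ne_zero_of_ne_bot h1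
  refine ⟨β, h0, ?_, ?_⟩
  · have := congrFun (LinearMap.mem_ker.1 hβ) 0
    simp [f, Matrix.mulVec] at this
    rw [dotProduct_comm]; exact this
  · have := congrFun (LinearMap.mem_ker.1 hβ) 1
    simp [f, Matrix.mulVec] at this
    rw [dotProduct_comm]; exact this

theorem exists_two' {α β : Fin m → F} (hm : 3 ≤ m) : ∃ b : Fin m → F, b ≠ 0 ∧ α ⬝ᵥ b = 0 ∧ β ⬝ᵥ b = 0 := by
  obtain ⟨b, h0, h1, h2⟩ := exists_two (a := α) (b := β) hm
  exact ⟨b, h0, by rw [dotProduct_comm, h1], by rw [dotProduct_comm, h2]⟩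

/-- `b` with `α b = 0`, `β a = 0`, `β b = 1`. -/
theorem exists_bridge (a α : Fin m → F) (hm : 3 ≤ m) :
    ∃ b β : Fin m → F, α ⬝ᵥ b = 0 ∧ β ⬝ᵥ a = 0 ∧ β ⬝ᵥ b = 1 := by
  by_contra hcon
  push Not at hcon
  have h1 : ∀ b β : Fin m → F, α ⬝ᵥ b = 0 → β ⬝ᵥ a = 0 → β ⬝ᵥ b = 0 := by
    intro b β h1 h2
    by_contra h3
    refine hcon b ((β ⬝ᵥ b)⁻¹ • β) h1 (by rw [smul_dotProduct, h2, smul_zero]) ?_
    rw [smul_dotProduct, smul_eq_mul, inv_mul_cancel₀ h3]
  -- ker α has dimension ≥ 2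
  obtain ⟨b, hb0, hb1, -⟩ := exists_two' (α := α) (β := α) hm
  -- every β with β a = 0 kills b, so b = c a
  obtain ⟨γ, hγ⟩ := exists_dot_one' hb0
  obtain ⟨b', hb'0, hb'1, hb'2⟩ := exists_two' (α := α) (β := γ) hm
  obtain ⟨δ, hδ⟩ := exists_dot_one' hb'0
  -- β := (δ a) γ - (γ a) δ kills a
  have h2 := h1 b' ((δ ⬝ᵥ a) • γ - (γ ⬝ᵥ a) • δ) hb'1 (by
    rw [sub_dotProduct, smul_dotProduct, smul_dotProduct]; simp only [smul_eq_mul]; ring)
  rw [sub_dotProduct, smul_dotProduct, smul_dotProduct, hb'2, hδ] at h2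
  simp only [smul_eq_mul, mul_zero, mul_one, zero_sub, neg_eq_zero] at h2
  have h3 := h1 b γ hb1 h2
  rw [hγ] at h3
  exact one_ne_zero h3

end Vec

/-! ### `rk` and `co` -/

section Rk

variable (ρ : Matrix (Fin m) (Fin m) F →ₐ[F] Matrix κ κ F)

/-- `ρ (a αᵀ)`. -/
def rk (a α : Fin m → F) : Matrix κ κ F := ρ (vecMulVec a α)

theorem rk_mul_rk (a α b β : Fin m → F) : rk ρ a α * rk ρ b β = (α ⬝ᵥ b) • rk ρ a β := by
  rw [rk, rk, rk, ← map_mul, vecMulVec_mul_vecMulVec, ← map_smul, vmv_smul_right]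

theorem map_mul_rk (A : Matrix (Fin m) (Fin m) F) (a α : Fin m → F) :
    ρ A * rk ρ a α = rk ρ (A *ᵥ a) α := by
  rw [rk, rk, ← map_mul, mul_vecMulVec]

theorem rk_mul_map (A : Matrix (Fin m) (Fin m) F) (a α : Fin m → F) :
    rk ρ a α * ρ A = rk ρ a (α ᵥ* A) := by
  rw [rk, rk, ← map_mul, vecMulVec_mul]

theorem rk_smul_left (c : F) (a α : Fin m → F) : rk ρ (c • a) α = c • rk ρ a α := by
  rw [rk, rk, vmv_smul_left, map_smul]

theorem rk_smul_right (c : F) (a α : Fin m → F) : rk ρ a (c • α) = c • rk ρ a α := by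
  rw [rk, rk, vmv_smul_right, map_smul]

theorem rk_add_left (a b α : Fin m → F) : rk ρ (a + b) α = rk ρ a α + rk ρ b α := by
  rw [rk, rk, rk, add_vecMulVec, map_add]

theorem rk_add_right (a α β : Fin m → F) : rk ρ a (α + β) = rk ρ a α + rk ρ a β := by
  rw [rk, rk, rk, vecMulVec_add, map_add]

theorem rk_sub_right (a α β : Fin m → F) : rk ρ a (α - β) = rk ρ a α - rk ρ a β := by
  rw [rk, rk, rk, ← map_sub]
  congr 1
  ext i j; simp [vecMulVec_apply, mul_sub]

theorem rk_sub_left (a b α : Fin m → F) : rk ρ (a - b) α = rk ρ a α - rk ρ b α := by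
  rw [rk, rk, rk, ← map_sub]
  congr 1
  ext i j; simp [vecMulVec_apply, sub_mul]

theorem rk_zero_left (α : Fin m → F) : rk ρ 0 α = 0 := by
  rw [rk, zero_vecMulVec, map_zero]

theorem rk_zero_right (a : Fin m → F) : rk ρ a 0 = 0 := by
  rw [rk, vecMulVec_zero, map_zero]

theorem rk_sum_left (a : Fin m → F) (α : Fin m → F) :
    ∑ i, a i • rk ρ (Pi.single i 1) α = rk ρ a α := by
  simp only [← rk_smul_left]
  simp only [rk]
  rw [← map_sum]
  congr 1
  ext i j
  rw [Matrix.sum_apply, Finset.sum_eq_single i]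
  · simp [vecMulVec_apply]
  · intro k _ hk
    simp [vecMulVec_apply, hk.symm]
  · intro h; exact absurd (Finset.mem_univ _) h

theorem rk_sum_right (a : Fin m → F) (α : Fin m → F) :
    ∑ i, α i • rk ρ a (Pi.single i 1) = rk ρ a α := by
  simp only [← rk_smul_right]
  simp only [rk]
  rw [← map_sum]
  congr 1
  ext i j
  rw [Matrix.sum_apply, Finset.sum_eq_single j]
  · simp [vecMulVec_apply]
  · intro k _ hk
    simp [vecMulVec_apply, hk.symm]
  · intro h; exact absurd (Finset.mem_univ _) h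

theorem sum_rk_one : ∑ i, rk ρ (Pi.single i 1) (Pi.single i 1) = 1 := by
  simp only [rk]
  rw [← map_sum, ← map_one ρ]
  congr 1
  ext i j
  rw [Matrix.sum_apply, Finset.sum_eq_single i]
  · simp [vecMulVec_apply, Matrix.one_apply, Pi.single_apply, eq_comm]
  · intro k _ hk
    simp [vecMulVec_apply, hk.symm]
  · intro h; exact absurd (Finset.mem_univ _) h

theorem map_eq_sum (A : Matrix (Fin m) (Fin m) F) :
    ρ A = ∑ i, ∑ j, A i j • rk ρ (Pi.single i 1) (Pi.single j 1) := by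
  conv_lhs => rw [← mul_one (ρ A), ← sum_rk_one ρ, Finset.mul_sum]
  rw [Finset.sum_comm]
  refine Finset.sum_congr rfl fun j _ => ?_
  rw [map_mul_rk, ← rk_sum_left]
  refine Finset.sum_congr rfl fun i _ => ?_
  congr 1
  simp

theorem ρ_injective [Nonempty κ] : Function.Injective ρ := by
  rcases Nat.eq_zero_or_pos m with h | h
  · subst h
    intro A B _
    ext i
    exact i.elim0
  · have : Nonempty (Fin m) := ⟨⟨0, h⟩⟩
    exact ρ.toRingHom.injective

theorem rk_eq_zero [Nonempty κ] {a α : Fin m → F} (h : rk ρ a α = 0) : a = 0 ∨ α = 0 := by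
  have h1 : vecMulVec a α = 0 := ρ_injective ρ (by rw [map_zero]; exact h)
  by_contra hcon
  push Not at hcon
  obtain ⟨i, hi⟩ := Function.ne_iff.1 hcon.1
  obtain ⟨j, hj⟩ := Function.ne_iff.1 hcon.2
  have := congrFun (congrFun h1 i) j
  rw [vecMulVec_apply] at this
  exact mul_ne_zero hi hj this

theorem rk_ne_zero [Nonempty κ] {a α : Fin m → F} (ha : a ≠ 0) (hα : α ≠ 0) : rk ρ a α ≠ 0 :=
  fun h => (rk_eq_zero ρ h).elim ha hα

/-- Commutes with the image of `ρ`. -/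
def Cen (r : Matrix κ κ F) : Prop := ∀ A, Commute (ρ A) r

theorem cen_iff {r : Matrix κ κ F} :
    Cen ρ r ↔ ∀ a α, rk ρ a α * r = r * rk ρ a α := by
  constructor
  · intro h a α
    exact h _
  · intro h A
    rw [map_eq_sum]
    refine Commute.sum_left _ _ _ fun i _ => Commute.sum_left _ _ _ fun j _ => ?_
    exact Commute.smul_left (h _ _) _

variable {ρ} in
theorem Cen.rk {r : Matrix κ κ F} (h : Cen ρ r) (a α : Fin m → F) :
    rk ρ a α * r = r * Wr.rk ρ a α := h _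

variable {ρ} in
theorem Cen.mul {r s : Matrix κ κ F} (h : Cen ρ r) (h' : Cen ρ s) : Cen ρ (r * s) :=
  fun A => (h A).mul_right (h' A)

variable {ρ} in
theorem Cen.smul {r : Matrix κ κ F} (c : F) (h : Cen ρ r) : Cen ρ (c • r) :=
  fun A => (h A).smul_right c

variable {ρ} in
theorem Cen.sub {r s : Matrix κ κ F} (h : Cen ρ r) (h' : Cen ρ s) : Cen ρ (r - s) :=
  fun A => (h A).sub_right (h' A)

variable {ρ} in
theorem Cen.add {r s : Matrix κ κ F} (h : Cen ρ r) (h' : Cen ρ s) : Cen ρ (r + s) :=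
  fun A => (h A).add_right (h' A)

theorem cen_one : Cen ρ (1 : Matrix κ κ F) := fun _ => Commute.one_right _

/-- The coefficient of `Y` at `(α, b)`. -/
def co (α b : Fin m → F) (Y : Matrix κ κ F) : Matrix κ κ F :=
  ∑ j, rk ρ (Pi.single j 1) α * Y * rk ρ b (Pi.single j 1)

theorem rk_mul_co (c γ α b : Fin m → F) (Y : Matrix κ κ F) :
    rk ρ c γ * co ρ α b Y = rk ρ c α * Y * rk ρ b γ := by
  rw [co, Finset.mul_sum]
  have h : ∀ j, rk ρ c γ * (rk ρ (Pi.single j 1) α * Y * rk ρ b (Pi.single j 1)) =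
      rk ρ c α * Y * (γ j • rk ρ b (Pi.single j 1)) := by
    intro j
    rw [← mul_assoc, ← mul_assoc, rk_mul_rk, dotProduct_single, mul_one, smul_mul_assoc, smul_mul_assoc,
      mul_smul_comm]
  simp only [h]
  rw [← Finset.mul_sum, rk_sum_right]

theorem co_mul_rk (c γ α b : Fin m → F) (Y : Matrix κ κ F) :
    co ρ α b Y * rk ρ c γ = rk ρ c α * Y * rk ρ b γ := by
  rw [co, Finset.sum_mul]
  have h : ∀ j, rk ρ (Pi.single j 1) α * Y * rk ρ b (Pi.single j 1) * rk ρ c γ =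
      (c j • rk ρ (Pi.single j 1) α) * Y * rk ρ b γ := by
    intro j
    rw [mul_assoc, rk_mul_rk, single_dotProduct, one_mul, mul_smul_comm, smul_mul_assoc, smul_mul_assoc]
  simp only [h]
  rw [← Finset.sum_mul, ← Finset.sum_mul, rk_sum_left]

theorem cen_co (α b : Fin m → F) (Y : Matrix κ κ F) : Cen ρ (co ρ α b Y) := by
  rw [cen_iff]
  intro c γ
  rw [rk_mul_co, co_mul_rk]

theorem eq_sum_co (Y : Matrix κ κ F) :
    Y = ∑ i, ∑ j, rk ρ (Pi.single i 1) (Pi.single j 1) * co ρ (Pi.single i 1) (Pi.single j 1) Y := by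
  simp only [rk_mul_co]
  conv_lhs => rw [← one_mul Y, ← mul_one (1 * Y), ← sum_rk_one ρ, Finset.sum_mul, Finset.sum_mul]
  refine Finset.sum_congr rfl fun i _ => ?_
  rw [Finset.mul_sum]

/-- If all coefficients are scalar then `Y` is in the image of `ρ`. -/
theorem mem_range_of_co {Y : Matrix κ κ F} (h : ∀ α b, ∃ c : F, co ρ α b Y = c • (1 : Matrix κ κ F)) :
    ∃ A, ρ A = Y := by
  choose c hc using h
  refine ⟨Matrix.of fun i j => c (Pi.single i 1) (Pi.single j 1), ?_⟩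
  conv_rhs => rw [eq_sum_co ρ Y]
  rw [map_eq_sum]
  refine Finset.sum_congr rfl fun i _ => Finset.sum_congr rfl fun j _ => ?_
  rw [hc, mul_smul_comm, mul_one, Matrix.of_apply]

theorem co_smul_left (c : F) (α b : Fin m → F) (Y : Matrix κ κ F) :
    co ρ (c • α) b Y = c • co ρ α b Y := by
  simp only [co, rk_smul_right, smul_mul_assoc, Finset.smul_sum]

theorem co_add_right (α b b' : Fin m → F) (Y : Matrix κ κ F) :
    co ρ α (b + b') Y = co ρ α b Y + co ρ α b' Y := by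
  simp only [co, rk_add_left, mul_add, Finset.sum_add_distrib]

theorem co_smul_right (c : F) (α b : Fin m → F) (Y : Matrix κ κ F) :
    co ρ α (c • b) Y = c • co ρ α b Y := by
  simp only [co, rk_smul_left, mul_smul_comm, Finset.smul_sum]

theorem co_add_left (α α' b : Fin m → F) (Y : Matrix κ κ F) :
    co ρ (α + α') b Y = co ρ α b Y + co ρ α' b Y := by
  simp only [co, rk_add_right, add_mul, Finset.sum_add_distrib]

theorem co_zero_right (α : Fin m → F) (Y : Matrix κ κ F) : co ρ α 0 Y = 0 := by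
  simp [co, rk_zero_left]

theorem co_zero_left (b : Fin m → F) (Y : Matrix κ κ F) : co ρ 0 b Y = 0 := by
  simp [co, rk_zero_right]

variable {ρ} in
/-- cancellation of a rank one factor against central elements -/
theorem Cen.eq_zero [Nonempty κ] {r : Matrix κ κ F} (h : Cen ρ r) {a α : Fin m → F} (ha : a ≠ 0) (hα : α ≠ 0)
    (h0 : Wr.rk ρ a α * r = 0) : r = 0 := by
  obtain ⟨a', ha'⟩ := exists_dot_one' ha
  obtain ⟨α', hα'⟩ := exists_dot_one hα
  have h1 : ∀ c γ, Wr.rk ρ c γ * r = 0 := by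
    intro c γ
    have h2 : Wr.rk ρ c a' * (Wr.rk ρ a α * r) * Wr.rk ρ α' γ = 0 := by rw [h0, mul_zero, zero_mul]
    rwa [← mul_assoc, rk_mul_rk, ha', one_smul, mul_assoc, ← h.rk, ← mul_assoc, rk_mul_rk, hα', one_smul] at h2
  rw [← one_mul r, ← sum_rk_one ρ, Finset.sum_mul]
  exact Finset.sum_eq_zero fun i _ => h1 _ _

end Rk

end Cfsg.Agent.H873.Wr
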