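import Cfsg.Agent.H873.WrPair

set_option autoImplicit false
set_option linter.unusedSectionVars false

namespace Cfsg.Agent.H873.Wr

open Matrix

variable {κ : Type} [Fintype κ] [DecidableEq κ] [Nonempty κ] {F : Type*} [Field F] {m : ℕ}

theorem cut_pow {x π : Matrix κ κ F} (hπ : π * π = π) (hx : Commute x π) (n : ℕ) :
    (x * π + (1 - π)) ^ n = x ^ n * π + (1 - π) := by
  induction n with
  | zero => rw [pow_zero, pow_zero, one_mul]; abel
  | succ n ih => rw [pow_succ, ih, cut_mul hπ hx, ← pow_succ]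

theorem di_pow (a b : F) (ha : a ≠ 0) (hb : b ≠ 0) (n : ℕ) :
    (di a b ha hb) ^ n = di (a ^ n) (b ^ n) (pow_ne_zero n ha) (pow_ne_zero n hb) := by
  induction n with
  | zero =>
    apply Units.ext
    change (1 : Matrix (Fin 2) (Fin 2) F) = !![a ^ 0, 0; 0, b ^ 0]
    ext i j; fin_cases i <;> fin_cases j <;> simp
  | succ n ih =>
    rw [pow_succ, ih]
    apply Units.ext
    rw [Units.val_mul]
    change !![a ^ n, 0; 0, b ^ n] * !![a, 0; 0, b] = !![a ^ (n + 1), 0; 0, b ^ (n + 1)]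
    ext i j; fin_cases i <;> fin_cases j <;> simp [pow_succ]

/-- Data of a pair with non-nilpotent `θ = N Y + Y N`. -/
theorem exists_sl2 [Finite F] {N Y : Matrix κ κ F} (hNN : N * N = 0) (hYY : Y * Y = 0)
    (hnil : ¬ ∃ k : ℕ, (N * Y + Y * N) ^ k = 0) :
    ∃ (π θ' : Matrix κ κ F) (k : ℕ), 0 < k ∧ π = (N * Y + Y * N) ^ k ∧ π * π = π ∧
      Sl2 (N * θ') (Y * π) π ∧ (N * Y + Y * N) * (N * θ') = N * π ∧ N * π * θ' = N * θ' ∧
      (N * Y + Y * N) * θ' = π ∧ Commute N π ∧ Commute Y π ∧ N * π ≠ 0 ∧ Y * π ≠ 0 ∧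
      Commute N θ' ∧ Commute Y θ' ∧ θ' * π = θ' := by
  obtain ⟨hcN, hcY⟩ := comm_theta hNN hYY
  set θ := N * Y + Y * N with hθ
  have : Finite (Matrix κ κ F) := inferInstanceAs (Finite (κ → κ → F))
  obtain ⟨k, hk0, hkk⟩ := exists_idempotent_pow θ
  obtain ⟨k', rfl⟩ : ∃ k', k = k' + 1 := ⟨k - 1, by omega⟩
  set π := θ ^ (k' + 1) with hπ
  set θ' := θ ^ k' * π with hθ'
  have hNπ : Commute N π := hcN.pow_right _
  have hYπ : Commute Y π := hcY.pow_right _
  have hNθ' : Commute N θ' := (hcN.pow_right _).mul_right hNπ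
  have hYθ' : Commute Y θ' := (hcY.pow_right _).mul_right hYπ
  have hθ'π : θ' * π = θ' := by rw [hθ', mul_assoc, hkk]
  have hππ' : Commute π θ' := by
    have : Commute π (θ ^ k') := (Commute.refl θ).pow_pow _ _
    exact this.mul_right (Commute.refl _)
  have hθθ' : θ * θ' = π := by
    rw [hθ', ← mul_assoc, ← pow_succ', ← hπ, hkk]
  have hnn : N * θ' * (N * θ') = 0 := by
    rw [mul_assoc, ← mul_assoc θ' N, ← hNθ'.eq, mul_assoc N θ' θ', ← mul_assoc N N, hNN, zero_mul]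
  have hyy : Y * π * (Y * π) = 0 := by
    rw [mul_assoc, ← mul_assoc π Y, ← hYπ.eq, mul_assoc Y π π, ← mul_assoc Y Y, hYY, zero_mul]
  have hs : N * θ' * (Y * π) + Y * π * (N * θ') = π := by
    have h1 : N * θ' * (Y * π) = N * Y * θ' := by
      rw [mul_assoc, ← mul_assoc θ' Y, ← hYθ'.eq, mul_assoc Y θ' π, hθ'π, mul_assoc]
    have h2 : Y * π * (N * θ') = Y * N * θ' := by
      rw [mul_assoc, ← mul_assoc π N, ← hNπ.eq, mul_assoc N π θ', hππ'.eq, hθ'π, mul_assoc]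
    rw [h1, h2, ← add_mul, ← hθ, hθθ']
  have hππ : π * π = π := hkk
  have hñπ : N * θ' * π = N * θ' := by rw [mul_assoc, hθ'π]
  have hyπ : Y * π * π = Y * π := by rw [mul_assoc, hππ]
  have hnyn : N * θ' * (Y * π) * (N * θ') = N * θ' := by
    have h1 : Y * π * (N * θ') = π - N * θ' * (Y * π) := eq_sub_of_add_eq' hs
    rw [mul_assoc, h1, mul_sub, hñπ, ← mul_assoc (N * θ') (N * θ') (Y * π), hnn, zero_mul, sub_zero]
  have hyny : Y * π * (N * θ') * (Y * π) = Y * π := by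
    have h1 : N * θ' * (Y * π) = π - Y * π * (N * θ') := eq_sub_of_add_eq hs
    rw [mul_assoc, h1, mul_sub, hyπ, ← mul_assoc (Y * π) (Y * π) (N * θ'), hyy, zero_mul, sub_zero]
  have hπ0 : π ≠ 0 := fun h => hnil ⟨_, h⟩
  have hθπ : θ * π ≠ 0 := by
    intro h
    apply hπ0
    have : π = θ ^ k' * (θ * π) := by
      rw [← mul_assoc, ← pow_succ, ← hπ, hππ]
    rw [this, h, mul_zero]
  have e1 : θ * (N * θ') = N * π := by
    rw [← mul_assoc, ← hcN.eq, mul_assoc, hθθ']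
  have e2 : N * π * θ' = N * θ' := by rw [mul_assoc, hππ'.eq, hθ'π]
  refine ⟨π, θ', k' + 1, by omega, rfl, hππ, ⟨hnn, hyy, hnyn, hyny, hs⟩, e1, e2, hθθ', hNπ, hYπ, ?_, ?_,
    hNθ', hYθ', hθ'π⟩
  · intro h
    apply hθπ
    rw [hθ, add_mul, mul_assoc N Y, hYπ.eq, ← mul_assoc N π, h, zero_mul, mul_assoc Y N, h, mul_zero, add_zero]
  · intro h
    apply hθπ
    rw [hθ, add_mul, mul_assoc N Y, h, mul_zero, mul_assoc Y N, hNπ.eq, ← mul_assoc Y π, h, zero_mul, add_zero]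

/-- The corner element of `RG N Y` lifts to `M`. -/
theorem JH_mem_of_mem [Fintype F] {N Y π ñ y : Matrix κ κ F} (hNN : N * N = 0) (hYY : Y * Y = 0)
    {k : ℕ} (hk : 0 < k) (hπk : π = (N * Y + Y * N) ^ k) (hπ : π * π = π) (hNπ : Commute N π) (hYπ : Commute Y π)
    (hs : Sl2 ñ y π) {c : F} (hc : c ≠ 0)
    (hmem : JH hs (di c c⁻¹ hc (inv_ne_zero hc)) ∈ RG (N * π) (Y * π)) :
    JH hs (di c c⁻¹ hc (inv_ne_zero hc)) ∈ RG N Y := by
  obtain ⟨p, hp⟩ := CharP.exists F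
  have hpp : Fact p.Prime := ⟨CharP.char_is_prime F p⟩
  obtain ⟨x, hx, hxe⟩ := lift_RG hNN hYY hπ hNπ hYπ hmem
  have hπ' : (1 - π) * (1 - π) = 1 - π := by rw [mul_sub, mul_one, sub_mul, one_mul, hπ, sub_self, sub_zero]
  have hNπ' : Commute N (1 - π) := (Commute.one_right _).sub_right hNπ
  have hYπ' : Commute Y (1 - π) := (Commute.one_right _).sub_right hYπ
  obtain ⟨u, hu, hue⟩ := cut_RG hπ' hNπ' hYπ' hx
  have hxπ : Commute (x : Matrix κ κ F) π := RG_commute hNπ hYπ hx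
  have hxπ' : Commute (x : Matrix κ κ F) (1 - π) := RG_commute hNπ' hYπ' hx
  have hn : N * (1 - π) * (N * (1 - π)) = 0 := by
    rw [mul_assoc, ← mul_assoc (1 - π), ← hNπ'.eq, mul_assoc N, ← mul_assoc N N, hNN, zero_mul]
  have hy : Y * (1 - π) * (Y * (1 - π)) = 0 := by
    rw [mul_assoc, ← mul_assoc (1 - π), ← hYπ'.eq, mul_assoc Y, ← mul_assoc Y Y, hYY, zero_mul]
  have hth : N * (1 - π) * (Y * (1 - π)) + Y * (1 - π) * (N * (1 - π)) = (N * Y + Y * N) * (1 - π) := by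
    rw [mul_assoc, ← mul_assoc (1 - π) Y, ← hYπ'.eq, mul_assoc Y, hπ', mul_assoc Y, ← mul_assoc (1 - π) N,
      ← hNπ'.eq, mul_assoc N (1 - π) (1 - π), hπ', add_mul, mul_assoc, mul_assoc]
  have hcom : Commute (N * Y + Y * N) (1 - π) := (hNπ'.mul_left hYπ').add_left (hYπ'.mul_left hNπ')
  have hk0 : (N * (1 - π) * (Y * (1 - π)) + Y * (1 - π) * (N * (1 - π))) ^ k = 0 := by
    rw [hth, hcom.mul_pow, ← hπk]
    obtain ⟨k', rfl⟩ : ∃ k', k = k' + 1 := ⟨k - 1, by omega⟩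
    rw [pow_succ', ← mul_assoc, mul_sub, mul_one, hπ, sub_self, zero_mul]
  have hu1 := pow_eq_one_of_nilp (p := p) hn hy hk0 hu
  -- exponent
  have hdvd : p ^ (3 * k) ∣ Fintype.card F ^ (3 * k) := by
    apply pow_dvd_pow_of_dvd
    obtain ⟨n, -, hn⟩ := FiniteField.card F p
    rw [hn]
    exact dvd_pow_self _ n.ne_zero
  have hu2 : (u : Matrix κ κ F) ^ (Fintype.card F ^ (3 * k)) = 1 := by
    obtain ⟨d, hd⟩ := hdvd
    rw [hd, pow_mul, hu1, one_pow]
  have h1 : (x : Matrix κ κ F) ^ (Fintype.card F ^ (3 * k)) * (1 - π) + (1 - (1 - π)) = 1 := by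
    rw [← cut_pow hπ' hxπ', ← hue, hu2]
  have h2 : (x : Matrix κ κ F) ^ (Fintype.card F ^ (3 * k)) * π + (1 - π) =
      (JH hs (di c c⁻¹ hc (inv_ne_zero hc)) : Matrix κ κ F) := by
    have hdi : (di c c⁻¹ hc (inv_ne_zero hc)) ^ (Fintype.card F ^ (3 * k)) = di c c⁻¹ hc (inv_ne_zero hc) := by
      rw [di_pow]
      apply Units.ext
      change !![c ^ _, 0; 0, c⁻¹ ^ _] = !![c, 0; 0, c⁻¹]
      rw [FiniteField.pow_card_pow, FiniteField.pow_card_pow]
    rw [← cut_pow hπ hxπ, ← hxe, ← Units.val_pow_eq_pow_val, ← map_pow, hdi]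
  have h3 : (JH hs (di c c⁻¹ hc (inv_ne_zero hc)) : Matrix κ κ F) =
      ((x ^ (Fintype.card F ^ (3 * k)) : GL κ F) : Matrix κ κ F) := by
    rw [← h2, Units.val_pow_eq_pow_val]
    have h4 : (x : Matrix κ κ F) ^ (Fintype.card F ^ (3 * k)) * (1 - π) = 1 - π := by
      have h5 := h1
      have h6 : (1 : Matrix κ κ F) - (1 - π) = π := by abel
      rw [h6] at h5
      rw [eq_sub_iff_add_eq]
      exact h5
    calc (x : Matrix κ κ F) ^ (Fintype.card F ^ (3 * k)) * π + (1 - π)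
        = (x : Matrix κ κ F) ^ (Fintype.card F ^ (3 * k)) * π +
          (x : Matrix κ κ F) ^ (Fintype.card F ^ (3 * k)) * (1 - π) := by rw [h4]
      _ = (x : Matrix κ κ F) ^ (Fintype.card F ^ (3 * k)) := by rw [← mul_add, add_sub_cancel, mul_one]
  rw [Units.ext h3]
  exact Subgroup.pow_mem _ hx _

theorem smul_rk_inM {M : Subgroup (GL κ F)} {ρ : Matrix (Fin m) (Fin m) F →ₐ[F] Matrix κ κ F} (h : GE M ρ)
    {e φ : Fin m → F} (hφe : φ ⬝ᵥ e = 0) (c : F) : InM M (c • rk ρ e φ) := by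
  rw [← rk_smul_right]
  exact h.root (by rw [smul_dotProduct, hφe, smul_zero])

theorem conj_expand {N Y : Matrix κ κ F} (hYY : Y * Y = 0) (b : F) :
    conjA (un (b • Y) (smul_sq hYY b)) N = N + b • (Y * N) - b • (N * Y) - b ^ 2 • (Y * N * Y) := by
  rw [conjA_apply]
  change (1 + b • Y) * N * (1 - b • Y) = _
  simp only [add_mul, mul_sub, one_mul, mul_one, smul_mul_assoc, mul_smul_comm, smul_smul, sub_eq_add_neg, smul_add]
  rw [pow_two]
  simp only [mul_add, mul_one, mul_neg, mul_smul_comm, smul_add, smul_neg, smul_smul, neg_add_rev]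
  abel

theorem theta_conj {N Y : Matrix κ κ F} (hNN : N * N = 0) (hYY : Y * Y = 0) (b : F) :
    N * conjA (un (b • Y) (smul_sq hYY b)) N + conjA (un (b • Y) (smul_sq hYY b)) N * N =
      (-b ^ 2) • (N * Y + Y * N) ^ 2 := by
  rw [conj_expand hYY b]
  have e1 : N * (N + b • (Y * N) - b • (N * Y) - b ^ 2 • (Y * N * Y)) =
      b • (N * Y * N) - b ^ 2 • (N * Y * N * Y) := by
    simp only [mul_add, mul_sub, mul_smul_comm, hNN]
    rw [← mul_assoc N N Y, hNN, zero_mul, smul_zero]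
    simp only [mul_assoc]
    abel
  have e2 : (N + b • (Y * N) - b • (N * Y) - b ^ 2 • (Y * N * Y)) * N =
      - (b • (N * Y * N)) - b ^ 2 • (Y * N * Y * N) := by
    simp only [add_mul, sub_mul, smul_mul_assoc, hNN]
    rw [mul_assoc Y N N, hNN, mul_zero, smul_zero]
    abel
  have e3 : (N * Y + Y * N) ^ 2 = N * Y * N * Y + Y * N * Y * N := by
    have h1 : (N * Y + Y * N) ^ 2 = N * Y * N * Y + N * (Y * Y) * N + Y * (N * N) * Y + Y * N * Y * N := by
      noncomm_ring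
    rw [h1, hYY, hNN, mul_zero, zero_mul, mul_zero, zero_mul, add_zero, add_zero]
  rw [e1, e2, e3]
  module

/-- The case where the torus element `T = diag(c, c⁻¹)` with `c² ≠ 1` is in `M`. -/
theorem GE.mem_range_of_four {M : Subgroup (GL κ F)} {ρ ρ' : Matrix (Fin m) (Fin m) F →ₐ[F] Matrix κ κ F}
    (hge : GE M ρ) (hge' : GE M ρ') (hm : 3 ≤ m) {e φ e' φ' : Fin m → F} (he : e ≠ 0) (hφ : φ ≠ 0)
    (hφe : φ ⬝ᵥ e = 0) (he' : e' ≠ 0) (hφ' : φ' ≠ 0) (hφe' : φ' ⬝ᵥ e' = 0) {c : F} (hc : c ≠ 0)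
    (hcc : c * c ≠ 1) {ñ π θ : Matrix κ κ F} (hs : Sl2 ñ (rk ρ' e' φ' * π) π) (hππ : π * π = π)
    (hθñc : Commute θ ñ) (hθyc : Commute θ (rk ρ' e' φ' * π)) (hθñ : θ * ñ = rk ρ e φ * π)
    (hNπ : Commute (rk ρ e φ) π) (hYπ : Commute (rk ρ' e' φ') π) (hNπ0 : rk ρ e φ * π ≠ 0)
    (hYπ0 : rk ρ' e' φ' * π ≠ 0) (hT : JH hs (di c c⁻¹ hc (inv_ne_zero hc)) ∈ M) :
    ∃ A, ρ A = rk ρ' e' φ' := by
  have hNN : rk ρ e φ * rk ρ e φ = 0 := rk_sq hφe
  have hYY : rk ρ' e' φ' * rk ρ' e' φ' = 0 := rk_sq hφe'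
  have hrN := hge.root hφe
  have hrY := hge'.root hφe'
  have hfN := fun {d : F} (hd : d ≠ 0) h1 h2 => hge.full_of_part hm he hφ hφe hππ hNπ hd h1 h2
  have hfY := fun {d : F} (hd : d ≠ 0) h1 h2 => hge'.full_of_part hm he' hφ' hφe' hππ hYπ hd h1 h2
  generalize hN : rk ρ e φ = N at *
  generalize hY : rk ρ' e' φ' = Y at *
  obtain ⟨T, hTd⟩ : ∃ T, T = JH hs (di c c⁻¹ hc (inv_ne_zero hc)) := ⟨_, rfl⟩
  rw [← hTd] at hT
  have hZ : ∀ (Z : Matrix κ κ F), π * Z = 0 → Z * π = 0 → conjA T Z = Z := by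
    intro Z h1 h2
    rw [hTd]
    apply conjA_eq_self
    unfold Commute SemiconjBy
    have a1 : ∀ B, io ñ (Y * π) B * Z = 0 := by intro B; rw [← io_pi hs, mul_assoc, h1, mul_zero]
    have a2 : ∀ B, Z * io ñ (Y * π) B = 0 := by intro B; rw [← pi_io hs, ← mul_assoc, h2, zero_mul]
    rw [coe_JH, add_mul, mul_add, a1, a2, sub_mul, mul_sub, one_mul, mul_one, h1, h2]
  have hTn : conjA T (N * π) = (c * c) • (N * π) := by
    rw [← hθñ]
    have h1 := JH_conj hs hθñc hθyc (di c c⁻¹ hc (inv_ne_zero hc)) !![0, 1; 0, 0]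
    rw [io_e12] at h1
    rw [hTd, conjA_apply, h1]
    have h2 : ((di c c⁻¹ hc (inv_ne_zero hc) : GL (Fin 2) F) : Matrix (Fin 2) (Fin 2) F) * !![0, 1; 0, 0] *
        (((di c c⁻¹ hc (inv_ne_zero hc))⁻¹ : GL (Fin 2) F) : Matrix (Fin 2) (Fin 2) F) = (c * c) • !![0, 1; 0, 0] := by
      change !![c, 0; 0, c⁻¹] * !![0, 1; 0, 0] * !![c⁻¹, 0; 0, c⁻¹⁻¹] = _
      ext i j; fin_cases i <;> fin_cases j <;> simp
    rw [h2, io_smul, io_e12, mul_smul_comm]
  have hTy : conjA T (Y * π) = (c⁻¹ * c⁻¹) • (Y * π) := by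
    have h1 := JH_conj hs (Commute.one_left _) (Commute.one_left _) (di c c⁻¹ hc (inv_ne_zero hc)) !![0, 0; 1, 0]
    rw [io_e21, one_mul, one_mul] at h1
    rw [hTd, conjA_apply, h1]
    have h2 : ((di c c⁻¹ hc (inv_ne_zero hc) : GL (Fin 2) F) : Matrix (Fin 2) (Fin 2) F) * !![0, 0; 1, 0] *
        (((di c c⁻¹ hc (inv_ne_zero hc))⁻¹ : GL (Fin 2) F) : Matrix (Fin 2) (Fin 2) F) = (c⁻¹ * c⁻¹) • !![0, 0; 1, 0] := by
      change !![c, 0; 0, c⁻¹] * !![0, 0; 1, 0] * !![c⁻¹, 0; 0, c⁻¹⁻¹] = _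
      ext i j; fin_cases i <;> fin_cases j <;> simp
    rw [h2, io_smul, io_e21]
  have part : ∀ {X : Matrix κ κ F} {d : F}, Commute X π → X * X = 0 → InM M X → conjA T (X * π) = d • (X * π) →
      InM M ((d - 1) • (X * π)) := by
    intro X d hXπ hXX hXM hXT
    have h1 : conjA T X = d • (X * π) + X * (1 - π) := by
      conv_lhs => rw [show X = X * π + X * (1 - π) by rw [← mul_add, add_sub_cancel, mul_one]]
      rw [map_add, hXT, hZ (X * (1 - π))]
      · rw [← mul_assoc, ← hXπ.eq, mul_assoc, mul_sub, mul_one, hππ, sub_self, mul_zero]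
      · rw [mul_assoc, sub_mul, one_mul, hππ, sub_self, mul_zero]
    have h2 := (hXM.conjA hT).sub hXM hXX (by
      rw [h1, add_mul, smul_mul_assoc, mul_assoc X π X, ← hXπ.eq, ← mul_assoc X X π, hXX, zero_mul, smul_zero,
        mul_assoc X (1 - π) X, sub_mul, one_mul, ← hXπ.eq, mul_sub, ← mul_assoc X X π, hXX, zero_mul, sub_zero,
        add_zero])
    rw [h1] at h2
    have h3 : d • (X * π) + X * (1 - π) - X = (d - 1) • (X * π) := by
      rw [mul_sub, mul_one, sub_smul, one_smul]; abel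
    rwa [h3] at h2
  have hNfull : N * π = N := hfN (d := c * c - 1) (sub_ne_zero.2 hcc) (part hNπ hNN hrN hTn) hNπ0
  have hcc' : c⁻¹ * c⁻¹ ≠ 1 := by
    intro h
    apply hcc
    rw [← mul_inv, inv_eq_one] at h
    exact h
  have hYfull : Y * π = Y := hfY (d := c⁻¹ * c⁻¹ - 1) (sub_ne_zero.2 hcc') (part hYπ hYY hrY hTy) hYπ0
  -- T is in the image of ρ
  have hTN : (T : Matrix κ κ F) * N = c • N := by
    rw [← hNfull, ← hθñ, hTd, coe_JH]
    have h1 : Commute θ (io ñ (Y * π) ((di c c⁻¹ hc (inv_ne_zero hc) : GL (Fin 2) F) : Matrix (Fin 2) (Fin 2) F) + (1 - π)) := by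
      have hzio : ∀ C, Commute θ (io ñ (Y * π) C) := by
        intro C
        simp only [io]
        exact ((((hθñc.mul_right hθyc).smul_right _).add_right (hθñc.smul_right _)).add_right
          (hθyc.smul_right _)).add_right ((hθyc.mul_right hθñc).smul_right _)
      have hzπ : Commute θ π := by
        have := (hθñc.mul_right hθyc).add_right (hθyc.mul_right hθñc)
        rwa [hs.s] at this
      exact (hzio _).add_right ((Commute.one_right _).sub_right hzπ)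
    rw [← mul_assoc, ← h1.eq, mul_assoc, add_mul]
    have h2 : io ñ (Y * π) ((di c c⁻¹ hc (inv_ne_zero hc) : GL (Fin 2) F) : Matrix (Fin 2) (Fin 2) F) * ñ
        = c • ñ := by
      have h3 := io_mul hs ((di c c⁻¹ hc (inv_ne_zero hc) : GL (Fin 2) F) : Matrix (Fin 2) (Fin 2) F) !![0, 1; 0, 0]
      rw [io_e12] at h3
      rw [h3]
      have h4 : ((di c c⁻¹ hc (inv_ne_zero hc) : GL (Fin 2) F) : Matrix (Fin 2) (Fin 2) F) * !![0, 1; 0, 0] = c • !![0, 1; 0, 0] := by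
        change !![c, 0; 0, c⁻¹] * !![0, 1; 0, 0] = _
        ext i j; fin_cases i <;> fin_cases j <;> simp
      rw [h4, io_smul, io_e12]
    have h5 : (1 - π) * ñ = 0 := by
      have := pi_io hs !![0, 1; 0, 0]
      rw [io_e12] at this
      rw [sub_mul, one_mul, this, sub_self]
    rw [h2, h5, add_zero, mul_smul_comm]
  have hTnorm : conjA T N = (c * c) • N := by rw [← hNfull]; exact hTn
  obtain ⟨a, r, hr, har⟩ := exists_factor (by omega : 0 < m)
    (hge.normalises hm hT he hφ (mul_ne_zero hc hc) (by rw [hN]; exact hTnorm))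
  obtain ⟨A, hA⟩ : ∃ A, ρ A = (T : Matrix κ κ F) := by
    have h1 : rk ρ ((a : Matrix (Fin m) (Fin m) F) *ᵥ e) φ * (r : Matrix κ κ F) = c • rk ρ e φ := by
      have h2 := hTN
      rw [har, mul_assoc, ← hN, ← hr.rk, ← mul_assoc, map_mul_rk] at h2
      exact h2
    have hae : (a : Matrix (Fin m) (Fin m) F) *ᵥ e ≠ 0 := by
      intro h
      apply he
      have := congrArg (((a⁻¹ : GL (Fin m) F) : Matrix (Fin m) (Fin m) F) *ᵥ ·) h
      simpa [mulVec_mulVec] using this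
    obtain ⟨χ, hχ⟩ := exists_dot_one' hae
    have h2 : rk ρ e φ * ((r : Matrix κ κ F) - (c * (χ ⬝ᵥ e)) • (1 : Matrix κ κ F)) = 0 := by
      have h3 := congrArg (rk ρ e χ * ·) h1
      simp only [← mul_assoc, rk_mul_rk, hχ, one_smul, mul_smul_comm] at h3
      rw [mul_sub, h3, mul_smul_comm, mul_one, smul_smul, sub_self]
    have h3 := sub_eq_zero.1 (Cen.eq_zero (ρ := ρ) (hr.sub ((cen_one ρ).smul _)) he hφ h2)
    refine ⟨(c * (χ ⬝ᵥ e)) • (a : Matrix (Fin m) (Fin m) F), ?_⟩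
    rw [har, h3, map_smul, mul_smul_comm, mul_one]
  have hc1 : c ≠ 1 := by rintro rfl; exact hcc (by ring)
  have hpoly : ∀ d : F, ∃ E, ρ E = io ñ (Y * π)
      ((!![c, 0; 0, c⁻¹] - 1) * (!![c, 0; 0, c⁻¹] - d • (1 : Matrix (Fin 2) (Fin 2) F))) := by
    intro d
    refine ⟨(A - 1) * (A - d • 1), ?_⟩
    rw [map_mul, map_sub, map_sub, map_one, map_smul, map_one, hA, ← io_mul hs]
    have h1 : (T : Matrix κ κ F) - 1 = io ñ (Y * π) (!![c, 0; 0, c⁻¹] - 1) := by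
      have h2 : (T : Matrix κ κ F) = io ñ (Y * π) !![c, 0; 0, c⁻¹] + (1 - π) := by rw [hTd]; rfl
      have h3 := io_add ñ (Y * π) (!![c, 0; 0, c⁻¹] - 1) 1
      rw [sub_add_cancel, io_one hs] at h3
      rw [h2, h3]; abel
    have h2 : (T : Matrix κ κ F) - d • (1 : Matrix κ κ F) = io ñ (Y * π) (!![c, 0; 0, c⁻¹] - d • (1 : Matrix (Fin 2) (Fin 2) F))
        + (1 - d) • (1 - π) := by
      have h2 : (T : Matrix κ κ F) = io ñ (Y * π) !![c, 0; 0, c⁻¹] + (1 - π) := by rw [hTd]; rfl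
      have h3 := io_add ñ (Y * π) (!![c, 0; 0, c⁻¹] - d • (1 : Matrix (Fin 2) (Fin 2) F)) (d • 1)
      rw [sub_add_cancel, io_smul, io_one hs] at h3
      rw [h2, h3]
      module
    have h3 : io ñ (Y * π) (!![c, 0; 0, c⁻¹] - 1) * ((1 - d) • (1 - π)) = 0 := by
      rw [mul_smul_comm, mul_sub, mul_one, io_pi hs, sub_self, smul_zero]
    rw [h2, mul_add, h1, h3, add_zero]
  have hdiag1 : (!![c, 0; 0, c⁻¹] - 1) * (!![c, 0; 0, c⁻¹] - c • (1 : Matrix (Fin 2) (Fin 2) F)) =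
      ((c⁻¹ - 1) * (c⁻¹ - c)) • !![0, 0; 0, 1] := by
    ext i j; fin_cases i <;> fin_cases j <;> simp [Matrix.mul_apply, Fin.sum_univ_two]
  have hdiag2 : (!![c, 0; 0, c⁻¹] - 1) * (!![c, 0; 0, c⁻¹] - c⁻¹ • (1 : Matrix (Fin 2) (Fin 2) F)) =
      ((c - 1) * (c - c⁻¹)) • !![1, 0; 0, 0] := by
    ext i j; fin_cases i <;> fin_cases j <;> simp [Matrix.mul_apply, Fin.sum_univ_two]
  have hne1 : (c⁻¹ - 1) * (c⁻¹ - c) ≠ 0 := by
    apply mul_ne_zero
    · rw [sub_ne_zero]; intro h; exact hc1 (inv_eq_one.1 h)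
    · rw [sub_ne_zero]; intro h
      apply hcc
      nth_rewrite 1 [← h]
      exact inv_mul_cancel₀ hc
  have hne2 : (c - 1) * (c - c⁻¹) ≠ 0 := by
    apply mul_ne_zero
    · rw [sub_ne_zero]; exact hc1
    · rw [sub_ne_zero]; intro h
      apply hcc
      nth_rewrite 1 [h]
      exact inv_mul_cancel₀ hc
  obtain ⟨E', hE'⟩ : ∃ E', ρ E' = Y * π * ñ := by
    obtain ⟨E, hE⟩ := hpoly c
    refine ⟨((c⁻¹ - 1) * (c⁻¹ - c))⁻¹ • E, ?_⟩
    rw [map_smul, hE, hdiag1, io_smul, smul_smul, inv_mul_cancel₀ hne1, one_smul]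
    simp [io]
  obtain ⟨E, hE⟩ : ∃ E, ρ E = ñ * (Y * π) := by
    obtain ⟨E, hE⟩ := hpoly c⁻¹
    refine ⟨((c - 1) * (c - c⁻¹))⁻¹ • E, ?_⟩
    rw [map_smul, hE, hdiag2, io_smul, smul_smul, inv_mul_cancel₀ hne2, one_smul]
    simp [io]
  apply hge.pz hm (A := E') (B := E) (Y₀ := Y) ?_ hrY
  · have h2 : Y * π * ñ * (Y * π) * (ñ * (Y * π)) = Y * π := by
      rw [hs.yny, ← mul_assoc, hs.yny]
    rw [hYfull] at h2
    rw [hE', hE, hYfull, h2]
  · apply ρ_injective ρ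
    rw [map_mul, hE, hE', map_zero, mul_assoc, ← mul_assoc (Y * π), hs.yy, zero_mul, mul_zero]

/-- **The pair theorem.** -/
theorem pair_good [Fintype F] {M : Subgroup (GL κ F)} {w : ℕ}
    {G : Set (Matrix (Fin m) (Fin m) F →ₐ[F] Matrix κ κ F)} (hG : Frames M w G) (hm : 3 ≤ m)
    (hF : ∃ c : F, c ≠ 0 ∧ c ≠ 1) : ∀ ρ ∈ G, ∀ ρ' ∈ G, RLe ρ ρ' ∨ Comm ρ ρ' := by
  classical
  by_contra hcon
  -- bad pairs
  let Bad : ℕ → Prop := fun n => ∃ ρ ∈ G, ∃ ρ' ∈ G, ∃ e φ e' φ' : Fin m → F, e ≠ 0 ∧ φ ≠ 0 ∧ φ ⬝ᵥ e = 0 ∧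
    e' ≠ 0 ∧ φ' ≠ 0 ∧ φ' ⬝ᵥ e' = 0 ∧ ¬ RLe ρ ρ' ∧
    (¬ ∃ k : ℕ, (rk ρ e φ * rk ρ' e' φ' + rk ρ' e' φ' * rk ρ e φ) ^ k = 0) ∧
    Nat.card (RG (rk ρ e φ) (rk ρ' e' φ')) = n
  have hex : ∃ n, Bad n := by
    push Not at hcon
    obtain ⟨ρ, hρ, ρ', hρ', h1, h2⟩ := hcon
    let i0 : Fin m := ⟨0, by omega⟩
    let i1 : Fin m := ⟨1, by omega⟩
    have h01 : i0 ≠ i1 := by simp [i0, i1]
    have he : (Pi.single i0 1 : Fin m → F) ≠ 0 := by
      intro h; have := congrFun h i0; simp at this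
    have hφ : (Pi.single i1 1 : Fin m → F) ≠ 0 := by
      intro h; have := congrFun h i1; simp at this
    have hφe : (Pi.single i1 1 : Fin m → F) ⬝ᵥ Pi.single i0 1 = 0 := by
      simp [h01]
    refine ⟨_, ρ, hρ, ρ', hρ', _, _, _, _, he, hφ, hφe, he, hφ, hφe, h1, fun h3 => ?_, rfl⟩
    rcases hG.nilp ρ hρ ρ' hρ' _ _ _ _ he hφ hφe he hφ hφe h3 with h4 | h4
    · exact h1 h4
    · exact h2 h4
  obtain ⟨ρ, hρ, ρ', hρ', e, φ, e', φ', he, hφ, hφe, he', hφ', hφe', hR, hnil, hcard⟩ := Nat.find_spec hex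
  have hminn : ∀ n, Bad n → Nat.find hex ≤ n := fun n hn => Nat.find_min' hex hn
  have hge := hG.ge ρ hρ
  have hge' := hG.ge ρ' hρ'
  have hw := hG.rank ρ hρ
  have hw' := hG.rank ρ' hρ'
  set N := rk ρ e φ with hN
  set Y := rk ρ' e' φ' with hY
  have hNN : N * N = 0 := rk_sq hφe
  have hYY : Y * Y = 0 := rk_sq hφe'
  have hNM : ∀ c : F, InM M (c • N) := smul_rk_inM hge hφe
  have hYM : ∀ c : F, InM M (c • Y) := smul_rk_inM hge' hφe'
  have hRGM : RG N Y ≤ M := RG_le hNM hYM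
  have hYnot : ¬ ∃ A, ρ A = Y := by
    intro h
    exact hR (hge'.rle_of_mem hge hm hw' hw he' hφ' h).symm
  -- minimality
  have hRGb : ∀ b : F, b ≠ 0 → RG N (conjA (un (b • Y) (smul_sq hYY b)) N) = RG N Y := by
    intro b hb
    set h := un (b • Y) (smul_sq hYY b) with hh
    have hhR : h ∈ RG N Y := un_mem_RG_right hYY b
    have hhM : h ∈ M := hRGM hhR
    have hle : RG N (conjA h N) ≤ RG N Y := by
      apply RG_le
      · exact RG_inM_left N Y hNN
      · intro c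
        have := (RG_inM_left N Y hNN c).conjA hhR
        rwa [map_smul] at this
    have hbad : Bad (Nat.card (RG N (conjA h N))) := by
      refine ⟨ρ, hρ, cj h ρ, hG.conj ρ hρ h hhM, e, φ, e, φ, he, hφ, hφe, he, hφ, hφe, ?_, ?_, ?_⟩
      · intro hRle
        obtain ⟨a, r, hr, har⟩ := exists_factor (by omega : 0 < m) hRle.symm
        have hrank : (ρ (a : Matrix (Fin m) (Fin m) F) * (r : Matrix κ κ F) - 1).rank ≤ w := by
          rw [← har, hh, coe_un, add_sub_cancel_left, ← hw' e' φ' he' hφ']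
          have : b • Y = (b • (1 : Matrix κ κ F)) * Y := by rw [smul_mul_assoc, one_mul]
          rw [this]
          exact rank_mul_le_right _ _
        by_cases ha : ∃ c : F, (a : Matrix (Fin m) (Fin m) F) = c • (1 : Matrix (Fin m) (Fin m) F)
        · obtain ⟨c, hc⟩ := ha
          -- h commutes with ρ
          have h1 : Commute (b • Y) N := by
            have h2 : b • Y = (h : Matrix κ κ F) - 1 := by rw [hh, coe_un, add_sub_cancel_left]
            rw [h2]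
            refine Commute.sub_left ?_ (Commute.one_left _)
            rw [har, hc, map_smul, map_one, smul_mul_assoc, one_mul]
            exact (hr _).symm.smul_left _
          have h3 : Commute Y N := by
            have h4 := h1.smul_left b⁻¹
            rwa [smul_smul, inv_mul_cancel₀ hb, one_smul] at h4
          apply hnil
          refine ⟨2, ?_⟩
          have h5 : (N * Y + Y * N) ^ 2 = N * (Y * N) * Y + N * (Y * Y) * N + Y * (N * N) * Y + Y * (N * Y) * N := by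
            noncomm_ring
          rw [h5, hYY, hNN, h3.eq, ← h3.eq, mul_zero, zero_mul, mul_zero, zero_mul, add_zero, add_zero]
          rw [h3.eq, ← mul_assoc N N, hNN, zero_mul, zero_mul, ← h3.eq, ← mul_assoc Y Y, hYY, zero_mul, zero_mul,
            add_zero]
        · obtain ⟨c, hc⟩ := scalar_of_rank_le hm (fun a α ha hα => (hw a α ha hα).ge) hr hrank ha
          apply hYnot
          refine ⟨b⁻¹ • (c • (a : Matrix (Fin m) (Fin m) F) - 1), ?_⟩
          have h2 : b • Y = (h : Matrix κ κ F) - 1 := by rw [hh, coe_un, add_sub_cancel_left]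
          rw [map_smul, map_sub, map_smul, map_one]
          have h3 : c • ρ (a : Matrix (Fin m) (Fin m) F) = (h : Matrix κ κ F) := by
            rw [har, hc, mul_smul_comm, mul_one]
          rw [h3, ← h2, smul_smul, inv_mul_cancel₀ hb, one_smul]
      · rintro ⟨k, hk⟩
        apply hnil
        have h1 := theta_conj hNN hYY b
        rw [rk_cj, ← hN] at hk
        rw [← hh] at h1
        rw [h1, smul_pow, ← pow_mul] at hk
        refine ⟨2 * k, ?_⟩
        rcases smul_eq_zero.1 hk with h2 | h2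
        · exact absurd h2 (pow_ne_zero _ (neg_ne_zero.2 (pow_ne_zero _ hb)))
        · exact h2
      · rw [rk_cj]
    have h1 := hminn _ hbad
    rw [← hcard] at h1
    exact Subgroup.eq_of_le_of_card_ge hle h1
  -- sl2 data
  obtain ⟨π, θ', k, hk0, hπk, hππ, hs, hθñ, hNπθ, hθθ', hNπ, hYπ, hNπ0, hYπ0, hNθ', hYθ', hθ'π⟩ :=
    exists_sl2 hNN hYY hnil
  obtain ⟨hcN, hcY⟩ := comm_theta hNN hYY
  set θ := N * Y + Y * N with hθ
  have hθñc : Commute θ (N * θ') := by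
    refine hcN.symm.mul_right ?_
    exact (hNθ'.mul_left hYθ').add_left (hYθ'.mul_left hNθ')
  have hθyc : Commute θ (Y * π) :=
    hcY.symm.mul_right ((hNπ.mul_left hYπ).add_left (hYπ.mul_left hNπ))
  have hmin : ∀ b : F, b ≠ 0 → RG (θ * (N * θ')) (θ * io (N * θ') (Y * π) !![-b, 1; -b ^ 2, b]) =
      RG (θ * (N * θ')) (Y * π) := by
    intro b hb
    have hel : θ * io (N * θ') (Y * π) !![-b, 1; -b ^ 2, b] = conjA (un (b • Y) (smul_sq hYY b)) N * π := by
      rw [conj_expand hYY b]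
      simp only [io, Matrix.of_apply, Matrix.cons_val', Matrix.cons_val_zero, Matrix.cons_val_one,
        Matrix.cons_val_fin_one, mul_add, mul_smul_comm, one_smul]
      have f1 : θ * (N * θ' * (Y * π)) = N * Y * π := by
        rw [← mul_assoc, hθñ, mul_assoc, ← mul_assoc π Y, ← hYπ.eq, mul_assoc Y, hππ, mul_assoc]
      have f2 : θ * (Y * π * (N * θ')) = Y * N * π := by
        rw [← mul_assoc, hθyc.eq, mul_assoc (Y * π), hθñ, mul_assoc Y, ← mul_assoc π N,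
          ← hNπ.eq, mul_assoc N, hππ, mul_assoc]
      have f3 : θ * (Y * π) = Y * N * Y * π := by
        rw [← mul_assoc, ← hcY.eq, hθ, mul_add, ← mul_assoc Y Y N, hYY, zero_mul, add_zero, mul_assoc Y N Y]
      rw [f1, f2, f3, hθñ]
      simp only [add_mul, sub_mul, smul_mul_assoc, neg_smul]
      abel
    rw [hel, hθñ]
    have hbπ : Commute (conjA (un (b • Y) (smul_sq hYY b)) N) π := by
      rw [conj_expand hYY b]
      exact (((hNπ.add_left ((hYπ.mul_left hNπ).smul_left b)).sub_left ((hNπ.mul_left hYπ).smul_left b)).sub_left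
        (((hYπ.mul_left hNπ).mul_left hYπ).smul_left _))
    have hbb : conjA (un (b • Y) (smul_sq hYY b)) N * conjA (un (b • Y) (smul_sq hYY b)) N = 0 := by
      rw [← map_mul, hNN, map_zero]
    apply le_antisymm
    · intro u hu
      obtain ⟨x, hx, hxe⟩ := lift_RG hNN hbb hππ hNπ hbπ hu
      rw [hRGb b hb] at hx
      obtain ⟨v, hv, hve⟩ := cut_RG hππ hNπ hYπ hx
      have : u = v := Units.ext (by rw [hxe, hve])
      rw [this]; exact hv
    · intro u hu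
      obtain ⟨x, hx, hxe⟩ := lift_RG hNN hYY hππ hNπ hYπ hu
      rw [← hRGb b hb] at hx
      obtain ⟨v, hv, hve⟩ := cut_RG hππ hNπ hbπ hx
      have : u = v := Units.ext (by rw [hxe, hve])
      rw [this]; exact hv
  have hTmem : ∀ (c : F) (hc : c ≠ 0), JH hs (di c c⁻¹ hc (inv_ne_zero hc)) ∈ M := by
    intro c hc
    have h1 := torus_mem hs hθñc hθyc hF hmin c hc
    rw [hθñ] at h1
    exact hRGM (JH_mem_of_mem hNN hYY hk0 hπk hππ hNπ hYπ hs hc h1)
  -- the two cases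
  by_cases hF4 : ∃ c : F, c ≠ 0 ∧ c * c ≠ 1
  · obtain ⟨c, hc, hcc⟩ := hF4
    exact hYnot (hge.mem_range_of_four hge' hm he hφ hφe he' hφ' hφe' hc hcc hs hππ hθñc hθyc hθñ hNπ hYπ hNπ0 hYπ0
      (hTmem c hc))
  · push Not at hF4
    obtain ⟨d, hd0, hd1⟩ := hF
    have hdd := hF4 d hd0
    have hdm : d = -1 := by
      have h1 : (d - 1) * (d + 1) = 0 := by linear_combination hdd
      rcases mul_eq_zero.1 h1 with h2 | h2
      · exact absurd (sub_eq_zero.1 h2) hd1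
      · exact eq_neg_of_add_eq_zero_left h2
    have h11 : (-1 : F) ≠ 1 := by rw [← hdm]; exact hd1
    have h20 : (2 : F) ≠ 0 := by
      intro h2; apply h11; linear_combination -h2
    have h3 : (3 : F) = 0 := by
      have := hF4 2 h20
      linear_combination this
    have hT := hTmem (-1) (neg_ne_zero.2 one_ne_zero)
    set T := JH hs (di (-1) (-1)⁻¹ (neg_ne_zero.2 one_ne_zero) (inv_ne_zero (neg_ne_zero.2 one_ne_zero))) with hTd
    have hTπ : (T : Matrix κ κ F) = 1 + π := by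
      have h1 : (T : Matrix κ κ F) = io (N * θ') (Y * π) !![-1, 0; 0, (-1)⁻¹] + (1 - π) := rfl
      have h2 : (!![-1, 0; 0, (-1)⁻¹] : Matrix (Fin 2) (Fin 2) F) = (-1 : F) • 1 := by
        ext i j; fin_cases i <;> fin_cases j <;> simp
      rw [h1, h2, io_smul, io_one hs]
      have h4 : (3 : F) • π = 0 := by rw [h3, zero_smul]
      have h5 : (-1 : F) • π + (1 - π) = 1 + π - (3 : F) • π := by module
      rw [h5, h4, sub_zero]
    apply hYnot
    exact hge.mem_range_of_three hm h3 he hφ hφe hT hs hTπ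
      (by rw [hTπ]; exact (Commute.one_left _).add_left hNπ.symm) hNπ0 ⟨θ', hNπθ.symm⟩ hθñ.symm
      (hge'.root hφe') hYπ rfl (by rw [hw' e' φ' he' hφ', hw e φ he hφ])

end Cfsg.Agent.H873.Wr
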