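import Cfsg.Agent.H873.WrIso

/-!
The group `RG N Y` generated by `1 + c N`, `1 + c Y` (`N² = Y² = 0`); it is a `p`-group if `N Y + Y N` is nilpotent.
-/

set_option autoImplicit false
set_option linter.unusedSectionVars false

namespace Cfsg.Agent.H873.Wr

open Matrix

variable {κ : Type} [Fintype κ] [DecidableEq κ] {F : Type*} [Field F]

/-- generators of `RG` -/
def RGS (N Y : Matrix κ κ F) : Set (GL κ F) :=
  {g | ∃ c : F, (g : Matrix κ κ F) = 1 + c • N ∨ (g : Matrix κ κ F) = 1 + c • Y}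

/-- the group generated by `1 + c N`, `1 + c Y` -/
def RG (N Y : Matrix κ κ F) : Subgroup (GL κ F) := Subgroup.closure (RGS N Y)

/-- `1 + X` as a unit when `X² = 0` -/
def un (X : Matrix κ κ F) (h : X * X = 0) : GL κ F where
  val := 1 + X
  inv := 1 - X
  val_inv := by
    have : (1 + X) * (1 - X) = 1 - X * X := by noncomm_ring
    rw [this, h, sub_zero]
  inv_val := by
    have : (1 - X) * (1 + X) = 1 - X * X := by noncomm_ring
    rw [this, h, sub_zero]

theorem coe_un (X : Matrix κ κ F) (h : X * X = 0) : (un X h : Matrix κ κ F) = 1 + X := rfl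

theorem coe_un_inv (X : Matrix κ κ F) (h : X * X = 0) : ((un X h)⁻¹ : GL κ F) = un (-X) (by rw [neg_mul_neg, h]) := by
  apply Units.ext
  change 1 - X = 1 + -X
  rw [sub_eq_add_neg]

theorem smul_sq {X : Matrix κ κ F} (h : X * X = 0) (c : F) : (c • X) * (c • X) = 0 := by
  rw [smul_mul_smul_comm, h, smul_zero]

theorem inM_iff_un {M : Subgroup (GL κ F)} {X : Matrix κ κ F} (h : X * X = 0) : InM M X ↔ un X h ∈ M := by
  constructor
  · rintro ⟨g, hg, he⟩
    have : g = un X h := Units.ext (by rw [he, coe_un])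
    rwa [← this]
  · intro hg
    exact ⟨_, hg, rfl⟩

theorem un_mem_RG_left {N Y : Matrix κ κ F} (h : N * N = 0) (c : F) : un (c • N) (smul_sq h c) ∈ RG N Y :=
  Subgroup.subset_closure ⟨c, Or.inl rfl⟩

theorem un_mem_RG_right {N Y : Matrix κ κ F} (h : Y * Y = 0) (c : F) : un (c • Y) (smul_sq h c) ∈ RG N Y :=
  Subgroup.subset_closure ⟨c, Or.inr rfl⟩

theorem RG_le {N Y : Matrix κ κ F} {M : Subgroup (GL κ F)} (hN : ∀ c : F, InM M (c • N))
    (hY : ∀ c : F, InM M (c • Y)) : RG N Y ≤ M := by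
  unfold RG
  rw [Subgroup.closure_le]
  rintro g ⟨c, hg | hg⟩
  · obtain ⟨x, hx, he⟩ := hN c
    have : g = x := Units.ext (by rw [hg, he])
    rw [this]; exact hx
  · obtain ⟨x, hx, he⟩ := hY c
    have : g = x := Units.ext (by rw [hg, he])
    rw [this]; exact hx

theorem RG_inM_left (N Y : Matrix κ κ F) (h : N * N = 0) (c : F) : InM (RG N Y) (c • N) :=
  ⟨_, un_mem_RG_left h c, rfl⟩

theorem RG_inM_right (N Y : Matrix κ κ F) (h : Y * Y = 0) (c : F) : InM (RG N Y) (c • Y) :=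
  ⟨_, un_mem_RG_right h c, rfl⟩

/-- elements of `RG N Y` commute with everything commuting with `N` and `Y` -/
theorem RG_commute {N Y X : Matrix κ κ F} (hN : Commute N X) (hY : Commute Y X) {g : GL κ F}
    (hg : g ∈ RG N Y) : Commute (g : Matrix κ κ F) X := by
  induction hg using Subgroup.closure_induction with
  | mem g hg =>
    obtain ⟨c, hg | hg⟩ := hg
    · rw [hg]; exact (Commute.one_left _).add_left (hN.smul_left c)
    · rw [hg]; exact (Commute.one_left _).add_left (hY.smul_left c)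
  | one => exact Commute.one_left _
  | mul x y _ _ hx hy => rw [Units.val_mul]; exact hx.mul_left hy
  | inv x _ hx => exact hx.units_inv_left

theorem comm_theta {N Y : Matrix κ κ F} (hN : N * N = 0) (hY : Y * Y = 0) :
    Commute N (N * Y + Y * N) ∧ Commute Y (N * Y + Y * N) := by
  constructor
  · unfold Commute SemiconjBy
    rw [mul_add, add_mul, ← mul_assoc, hN, zero_mul, zero_add, mul_assoc Y, hN, mul_zero, add_zero, mul_assoc]
  · unfold Commute SemiconjBy
    rw [mul_add, add_mul, ← mul_assoc Y Y, hY, zero_mul, add_zero, mul_assoc N, hY, mul_zero, zero_add, mul_assoc]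

section PGroup

variable [Fintype F] {p : ℕ} [hp : Fact p.Prime] [CharP F p]

/-- `g` acts trivially on the factors of the chain `V ⊇ NV + YV ⊇ NYV + YNV ⊇ θV`. -/
def Chain (N Y : Matrix κ κ F) (g : Matrix κ κ F) : Prop :=
  (∀ v, (g - 1) *ᵥ v ∈ LinearMap.range N.mulVecLin ⊔ LinearMap.range Y.mulVecLin) ∧
  (∀ v ∈ LinearMap.range N.mulVecLin ⊔ LinearMap.range Y.mulVecLin,
    (g - 1) *ᵥ v ∈ LinearMap.range (N * Y).mulVecLin ⊔ LinearMap.range (Y * N).mulVecLin) ∧
  (∀ v ∈ LinearMap.range (N * Y).mulVecLin ⊔ LinearMap.range (Y * N).mulVecLin,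
    (g - 1) *ᵥ v ∈ LinearMap.range (N * Y + Y * N).mulVecLin)

theorem chain_mul {N Y g h : Matrix κ κ F} (hg : Chain N Y g) (hh : Chain N Y h) : Chain N Y (g * h) := by
  have key : ∀ v, (g * h - 1) *ᵥ v = (g - 1) *ᵥ (v + (h - 1) *ᵥ v) + (h - 1) *ᵥ v := by
    intro v
    have : g * h - 1 = (g - 1) * (1 + (h - 1)) + (h - 1) := by noncomm_ring
    rw [this, add_mulVec, ← mulVec_mulVec, add_mulVec, one_mulVec]
  have h21 : LinearMap.range (N * Y).mulVecLin ⊔ LinearMap.range (Y * N).mulVecLin ≤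
      LinearMap.range N.mulVecLin ⊔ LinearMap.range Y.mulVecLin := by
    rw [mulVecLin_mul, mulVecLin_mul]
    exact sup_le_sup (LinearMap.range_comp_le_range _ _) (LinearMap.range_comp_le_range _ _)
  have h32 : LinearMap.range (N * Y + Y * N).mulVecLin ≤
      LinearMap.range (N * Y).mulVecLin ⊔ LinearMap.range (Y * N).mulVecLin := by
    rintro _ ⟨v, rfl⟩
    rw [mulVecLin_apply, add_mulVec]
    exact Submodule.add_mem_sup ⟨v, rfl⟩ ⟨v, rfl⟩
  refine ⟨fun v => ?_, fun v hv => ?_, fun v hv => ?_⟩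
  · rw [key]
    exact Submodule.add_mem _ (hg.1 _) (hh.1 _)
  · rw [key]
    exact Submodule.add_mem _ (hg.2.1 _ (Submodule.add_mem _ hv (h21 (hh.2.1 v hv)))) (hh.2.1 v hv)
  · rw [key]
    exact Submodule.add_mem _ (hg.2.2 _ (Submodule.add_mem _ hv (h32 (hh.2.2 v hv)))) (hh.2.2 v hv)

theorem chain_one (N Y : Matrix κ κ F) : Chain N Y (1 : Matrix κ κ F) := by
  refine ⟨fun v => ?_, fun v _ => ?_, fun v _ => ?_⟩ <;>
  · rw [sub_self, zero_mulVec]; exact Submodule.zero_mem _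

theorem chain_left {N Y : Matrix κ κ F} (hN : N * N = 0) (c : F) : Chain N Y (1 + c • N) := by
  have e : (1 + c • N) - 1 = c • N := by abel
  refine ⟨fun v => ?_, fun v hv => ?_, fun v hv => ?_⟩
  · rw [e, smul_mulVec]
    exact Submodule.smul_mem _ _ (Submodule.mem_sup_left ⟨v, rfl⟩)
  · rw [e, smul_mulVec]
    apply Submodule.smul_mem
    obtain ⟨_, ⟨a, rfl⟩, _, ⟨b, rfl⟩, rfl⟩ := Submodule.mem_sup.1 hv
    rw [mulVecLin_apply, mulVecLin_apply, mulVec_add, mulVec_mulVec, hN, zero_mulVec, zero_add, mulVec_mulVec]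
    exact Submodule.mem_sup_left ⟨b, rfl⟩
  · rw [e, smul_mulVec]
    apply Submodule.smul_mem
    obtain ⟨_, ⟨a, rfl⟩, _, ⟨b, rfl⟩, rfl⟩ := Submodule.mem_sup.1 hv
    rw [mulVecLin_apply, mulVecLin_apply, mulVec_add, mulVec_mulVec, ← mul_assoc, hN, zero_mul, zero_mulVec,
      zero_add, mulVec_mulVec]
    refine ⟨N *ᵥ b, ?_⟩
    rw [mulVecLin_apply, mulVec_mulVec, add_mul, mul_assoc Y, hN, mul_zero, add_zero, mul_assoc]

theorem chain_right {N Y : Matrix κ κ F} (hY : Y * Y = 0) (c : F) : Chain N Y (1 + c • Y) := by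
  have h := chain_left (N := Y) (Y := N) hY c
  obtain ⟨h1, h2, h3⟩ := h
  refine ⟨fun v => ?_, fun v hv => ?_, fun v hv => ?_⟩
  · rw [sup_comm]; exact h1 v
  · rw [sup_comm]; rw [sup_comm] at hv; exact h2 v hv
  · rw [add_comm]; rw [sup_comm] at hv; exact h3 v hv

theorem chain_RG {N Y : Matrix κ κ F} (hN : N * N = 0) (hY : Y * Y = 0) {g : GL κ F} (hg : g ∈ RG N Y) :
    Chain N Y (g : Matrix κ κ F) := by
  induction hg using Subgroup.closure_induction with
  | mem g hg =>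
    obtain ⟨c, hg | hg⟩ := hg
    · rw [hg]; exact chain_left hN c
    · rw [hg]; exact chain_right hY c
  | one => exact chain_one N Y
  | mul x y _ _ hx hy => rw [Units.val_mul]; exact chain_mul hx hy
  | inv x _ hx =>
    have h1 : ∀ n : ℕ, Chain N Y ((x ^ n : GL κ F) : Matrix κ κ F) := by
      intro n
      induction n with
      | zero => rw [pow_zero]; exact chain_one N Y
      | succ n ih => rw [pow_succ, Units.val_mul]; exact chain_mul ih hx
    have h2 : x⁻¹ = x ^ (orderOf x - 1) := by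
      have h3 : 0 < orderOf x := orderOf_pos x
      rw [inv_eq_iff_mul_eq_one, ← pow_succ', Nat.sub_add_cancel h3, pow_orderOf_eq_one]
    rw [h2]
    exact h1 _

theorem sub_one_pow_eq_zero {N Y : Matrix κ κ F} (hN : N * N = 0) (hY : Y * Y = 0) {k : ℕ}
    (hk : (N * Y + Y * N) ^ k = 0) {g : GL κ F} (hg : g ∈ RG N Y) :
    ((g : Matrix κ κ F) - 1) ^ (3 * k) = 0 := by
  have hc := chain_RG hN hY hg
  have hcom : Commute ((g : Matrix κ κ F) - 1) (N * Y + Y * N) :=
    (RG_commute (comm_theta hN hY).1 (comm_theta hN hY).2 hg).sub_left (Commute.one_left _)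
  have h3 : ∀ v, ((g : Matrix κ κ F) - 1) ^ 3 *ᵥ v ∈ LinearMap.range (N * Y + Y * N).mulVecLin := by
    intro v
    have : ((g : Matrix κ κ F) - 1) ^ 3 *ᵥ v = ((g : Matrix κ κ F) - 1) *ᵥ (((g : Matrix κ κ F) - 1) *ᵥ
        (((g : Matrix κ κ F) - 1) *ᵥ v)) := by
      rw [mulVec_mulVec, mulVec_mulVec]
      congr 1
      noncomm_ring
    rw [this]
    exact hc.2.2 _ (hc.2.1 _ (hc.1 v))
  have h4 : ∀ j v, ((g : Matrix κ κ F) - 1) ^ (3 * j) *ᵥ v ∈ LinearMap.range ((N * Y + Y * N) ^ j).mulVecLin := by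
    intro j
    induction j with
    | zero =>
      intro v
      exact ⟨v, by simp⟩
    | succ j ih =>
      intro v
      rw [Nat.mul_succ, pow_add ((g : Matrix κ κ F) - 1), ← mulVec_mulVec]
      obtain ⟨u, hu⟩ := h3 v
      rw [← hu, mulVecLin_apply, mulVec_mulVec, ((hcom.pow_left (3 * j))).eq, ← mulVec_mulVec]
      obtain ⟨u', hu'⟩ := ih u
      rw [← hu', mulVecLin_apply, mulVec_mulVec, ← pow_succ']
      exact ⟨u', rfl⟩
  apply Matrix.ext_of_mulVec_single
  intro i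
  obtain ⟨u, hu⟩ := h4 k (Pi.single i 1)
  rw [← hu, hk, mulVecLin_apply, zero_mulVec, zero_mulVec]

include hp in
theorem pow_eq_one_of_nilp {N Y : Matrix κ κ F} (hN : N * N = 0) (hY : Y * Y = 0) {k : ℕ}
    (hk : (N * Y + Y * N) ^ k = 0) {g : GL κ F} (hg : g ∈ RG N Y) :
    (g : Matrix κ κ F) ^ (p ^ (3 * k)) = 1 := by
  have h1 := sub_one_pow_eq_zero hN hY hk hg
  have : CharP (Matrix κ κ F) p ∨ IsEmpty κ := by
    rcases isEmpty_or_nonempty κ with h | h
    · exact Or.inr h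
    · exact Or.inl inferInstance
  rcases this with h | h
  · have h2 : ((g : Matrix κ κ F) - 1) ^ (p ^ (3 * k)) = (g : Matrix κ κ F) ^ (p ^ (3 * k)) - 1 := by
      rw [sub_pow_char_pow_of_commute _ _ (Commute.one_right _), one_pow]
    have h3 : 3 * k ≤ p ^ (3 * k) := (Nat.lt_pow_self hp.out.one_lt).le
    rw [← sub_eq_zero, ← h2, ← Nat.sub_add_cancel h3, pow_add, h1, mul_zero]
  · ext i; exact h.elim i

end PGroup

end Cfsg.Agent.H873.Wr
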