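import Cfsg.Agent.H873.WrTwo1

/-!
Two-element fields, `m = 3`: a swap is not a root of a good embedding.
-/

set_option autoImplicit false
set_option linter.unusedSectionVars false
set_option linter.unusedSimpArgs false
set_option linter.unusedVariables false

namespace Cfsg.Agent.H873.Wr

open Matrix Cfsg.Agent.H919 Cfsg.Geo

/-- group commutator -/
def K {G : Type*} [Group G] (a b : G) : G := a * b * a⁻¹ * b⁻¹

theorem map_K {G G' : Type*} [Group G] [Group G'] (f : G →* G') (a b : G) : f (K a b) = K (f a) (f b) := by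
  simp only [K, map_mul, map_inv]

theorem K_one_of_comm {G : Type*} [Group G] {a b : G} (h : a * b = b * a) : K a b = 1 := by
  rw [K, h, mul_inv_cancel_right, mul_inv_cancel]

section ClassTwo

variable {F : Type*} [Field F]

/-- decomposition of the plane `ker φ` in dimension three -/
theorem exists_plane {e φ : Fin 3 → F} (he : e ≠ 0) (hφ : φ ≠ 0) (h0 : φ ⬝ᵥ e = 0) :
    ∃ k v : Fin 3 → F, φ ⬝ᵥ k = 0 ∧ φ ⬝ᵥ v = 1 ∧ (∀ c : F, k ≠ c • e) ∧
      ∀ u : Fin 3 → F, ∃ a b c : F, u = a • e + b • k + c • v := by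
  obtain ⟨v, hv⟩ := exists_dot_one hφ
  obtain ⟨ψ, hψ, hψe, hψv⟩ := exists_two (a := e) (b := v) le_rfl
  obtain ⟨k0, hk0⟩ := exists_dot_one hψ
  -- k := k0 - (φ k0) v
  set k := k0 - (φ ⬝ᵥ k0) • v with hk
  have h1 : φ ⬝ᵥ k = 0 := by rw [hk, dotProduct_sub, dotProduct_smul, hv]; simp
  have h2 : ψ ⬝ᵥ k = 1 := by rw [hk, dotProduct_sub, dotProduct_smul, hψv, hk0]; simp
  obtain ⟨ε, hε⟩ := exists_dot_one' he
  refine ⟨k, v, h1, hv, ?_, ?_⟩
  · rintro c hc
    rw [hc, dotProduct_smul, hψe, smul_zero] at h2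
    exact zero_ne_one h2
  · have hli : LinearIndependent F ![e, k, v] := by
      rw [Fintype.linearIndependent_iff]
      intro g hg
      rw [Fin.sum_univ_three] at hg
      simp only [cons_val_zero, cons_val_one, cons_val_two, tail_cons, head_cons, cons_val] at hg
      have g2 : g 2 = 0 := by
        have := congrArg (fun z => φ ⬝ᵥ z) hg
        simpa [dotProduct_add, dotProduct_smul, h0, h1, hv] using this
      have g1 : g 1 = 0 := by
        have := congrArg (fun z => ψ ⬝ᵥ z) hg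
        simpa [dotProduct_add, dotProduct_smul, hψe, h2, hψv] using this
      have g0 : g 0 = 0 := by
        rw [g1, g2, zero_smul, zero_smul, add_zero, add_zero] at hg
        exact (smul_eq_zero.1 hg).resolve_right he
      intro i
      fin_cases i
      · exact g0
      · exact g1
      · exact g2
    have hspan := hli.span_eq_top_of_card_eq_finrank (by simp)
    intro u
    have hu : u ∈ Submodule.span F (Set.range ![e, k, v]) := by rw [hspan]; trivial
    rw [Submodule.mem_span_range_iff_exists_fun] at hu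
    obtain ⟨c, hc⟩ := hu
    rw [Fin.sum_univ_three] at hc
    simp only [cons_val_zero, cons_val_one, cons_val_two, tail_cons, head_cons, cons_val] at hc
    exact ⟨c 0, c 1, c 2, hc.symm⟩

/-- the stabiliser of a flag over the field of two elements -/
def Fl (e φ : Fin 3 → F) (a : GL (Fin 3) F) : Prop :=
  (a : Matrix (Fin 3) (Fin 3) F) *ᵥ e = e ∧ φ ᵥ* (a : Matrix (Fin 3) (Fin 3) F) = φ

theorem Fl.prod (hT : Two F) {e φ : Fin 3 → F} (he : e ≠ 0) (hφ : φ ≠ 0) (h0 : φ ⬝ᵥ e = 0)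
    {a b : GL (Fin 3) F} (ha : Fl e φ a) (hb : Fl e φ b) :
    ∃ c : F, ((a : Matrix (Fin 3) (Fin 3) F) - 1) * ((b : Matrix (Fin 3) (Fin 3) F) - 1) = c • vecMulVec e φ := by
  obtain ⟨k, v, hk, hv, hke, hspan⟩ := exists_plane he hφ h0
  -- images of vectors of `ker φ`
  have h1 : ∀ {g : GL (Fin 3) F}, Fl e φ g → ∀ u, φ ⬝ᵥ u = 0 → ∃ a b : F, u = a • e + b • k := by
    intro g hg u hu
    obtain ⟨a, b, c, rfl⟩ := hspan u
    rw [dotProduct_add, dotProduct_add, dotProduct_smul, dotProduct_smul, dotProduct_smul, h0, hk, hv] at hu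
    simp at hu
    exact ⟨a, b, by rw [hu, zero_smul, add_zero]⟩
  have h2 : ∀ {g : GL (Fin 3) F}, Fl e φ g → ∀ u, φ ⬝ᵥ (((g : Matrix (Fin 3) (Fin 3) F) - 1) *ᵥ u) = 0 := by
    intro g hg u
    rw [sub_mulVec, dotProduct_sub, dotProduct_mulVec, hg.2, one_mulVec, sub_self]
  have h3 : ∀ {g : GL (Fin 3) F}, Fl e φ g → ((g : Matrix (Fin 3) (Fin 3) F) - 1) *ᵥ e = 0 := by
    intro g hg
    rw [sub_mulVec, hg.1, one_mulVec, sub_self]
  have h4 : ∀ {g : GL (Fin 3) F}, Fl e φ g → ∃ c : F, ((g : Matrix (Fin 3) (Fin 3) F) - 1) *ᵥ k = c • e := by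
    intro g hg
    obtain ⟨a, b, hab⟩ := h1 hg _ (h2 hg k)
    rcases hT b with rfl | rfl
    · exact ⟨a, by rw [hab, zero_smul, add_zero]⟩
    · exfalso
      rw [sub_mulVec, one_mulVec, one_smul, sub_eq_iff_eq_add] at hab
      -- g k = a e
      have h5 : (g : Matrix (Fin 3) (Fin 3) F) *ᵥ k = a • e := by
        rw [hab, add_assoc, hT.add_self, add_zero]
      have h6 : (g : Matrix (Fin 3) (Fin 3) F) *ᵥ (k - a • e) = 0 := by
        rw [mulVec_sub, mulVec_smul, hg.1, h5, sub_self]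
      have h7 : k - a • e = 0 := by
        by_contra hne
        exact gl_mulVec_ne_zero g hne h6
      exact hke a (sub_eq_zero.1 h7)
  -- the product kills `e` and `k`
  obtain ⟨cb, hcb⟩ := h4 hb
  obtain ⟨p, q, hpq⟩ := h1 hb _ (h2 hb v)
  obtain ⟨ca, hca⟩ := h4 ha
  refine ⟨q * ca, ?_⟩
  have hprod : ∀ u, (((a : Matrix (Fin 3) (Fin 3) F) - 1) * ((b : Matrix (Fin 3) (Fin 3) F) - 1)) *ᵥ u =
      ((q * ca) • vecMulVec e φ) *ᵥ u := by
    intro u
    obtain ⟨x, y, z, rfl⟩ := hspan u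
    rw [← mulVec_mulVec]
    simp only [mulVec_add, mulVec_smul, h3 hb, hcb, hpq, smul_zero, zero_add, h3 ha, hca, smul_mulVec,
      vecMulVec_mulVec, h0, hk, hv, add_zero, smul_eq_mul, mul_one, op_smul_eq_smul, one_smul, zero_smul, smul_smul]
  exact Matrix.mulVec_injective (funext hprod)

/-- **class two** -/
theorem Fl.class_two (hT : Two F) {e φ : Fin 3 → F} (he : e ≠ 0) (hφ : φ ≠ 0) (h0 : φ ⬝ᵥ e = 0)
    {a b c : GL (Fin 3) F} (ha : Fl e φ a) (hb : Fl e φ b) (hc : Fl e φ c) : K (K a b) c = 1 := by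
  obtain ⟨s, hs⟩ := Fl.prod hT he hφ h0 ha hb
  obtain ⟨s', hs'⟩ := Fl.prod hT he hφ h0 hb ha
  set N := vecMulVec e φ with hN
  have hNl : ∀ {g : GL (Fin 3) F}, Fl e φ g → (g : Matrix (Fin 3) (Fin 3) F) * N = N := by
    intro g hg
    rw [hN, mul_vecMulVec, hg.1]
  have hNr : ∀ {g : GL (Fin 3) F}, Fl e φ g → N * (g : Matrix (Fin 3) (Fin 3) F) = N := by
    intro g hg
    rw [hN, vecMulVec_mul, hg.2]
  -- a b = b a + (s - s') N
  have h1 : (a : Matrix (Fin 3) (Fin 3) F) * b = (b : Matrix (Fin 3) (Fin 3) F) * a + (s - s') • N := by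
    have e1 : (a : Matrix (Fin 3) (Fin 3) F) * b - (b : Matrix (Fin 3) (Fin 3) F) * a =
        ((a : Matrix (Fin 3) (Fin 3) F) - 1) * ((b : Matrix (Fin 3) (Fin 3) F) - 1) -
        ((b : Matrix (Fin 3) (Fin 3) F) - 1) * ((a : Matrix (Fin 3) (Fin 3) F) - 1) := by noncomm_ring
    rw [hs, hs', ← sub_smul] at e1
    rw [← e1]
    abel
  have hNinv : ∀ {g : GL (Fin 3) F}, Fl e φ g → N * ((g⁻¹ : GL (Fin 3) F) : Matrix (Fin 3) (Fin 3) F) = N := by
    intro g hg
    calc N * ((g⁻¹ : GL (Fin 3) F) : Matrix (Fin 3) (Fin 3) F) =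
        N * (g : Matrix (Fin 3) (Fin 3) F) * ((g⁻¹ : GL (Fin 3) F) : Matrix (Fin 3) (Fin 3) F) := by rw [hNr hg]
      _ = N := by rw [mul_assoc, Units.mul_inv, mul_one]
  have h2 : ((K a b : GL (Fin 3) F) : Matrix (Fin 3) (Fin 3) F) = 1 + (s - s') • N := by
    rw [K, Units.val_mul, Units.val_mul, Units.val_mul, h1, add_mul, add_mul, mul_assoc ((b : Matrix (Fin 3) (Fin 3) F)),
      Units.mul_inv, mul_one, Units.mul_inv, smul_mul_assoc, hNinv ha, smul_mul_assoc, hNinv hb]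
  apply K_one_of_comm
  apply Units.ext
  rw [Units.val_mul, Units.val_mul, h2, add_mul, mul_add, one_mul, mul_one, smul_mul_assoc, mul_smul_comm, hNl hc,
    hNr hc]

end ClassTwo

section NoSwap

variable {κ : Type} [Fintype κ] [DecidableEq κ] [Nonempty κ] {F : Type*} [Field F]
  {ρ ρ' : Matrix (Fin 3) (Fin 3) F →ₐ[F] Matrix κ κ F} {M : Subgroup (GL κ F)}

/-- the centraliser of the image of `ρ` in the general linear group -/
def CenG {m : ℕ} (ρ : Matrix (Fin m) (Fin m) F →ₐ[F] Matrix κ κ F) : Subgroup (GL κ F) where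
  carrier := {r | Cen ρ (r : Matrix κ κ F)}
  one_mem' := cen_one ρ
  mul_mem' := fun {a b} ha hb => by
    change Cen ρ ((a * b : GL κ F) : Matrix κ κ F)
    rw [Units.val_mul]
    exact Cen.mul ha hb
  inv_mem' := fun {a} ha => by
    intro A
    exact (Commute.units_inv_right (ha A) : _)

/-- `ρ` on units -/
def UG {m : ℕ} (ρ : Matrix (Fin m) (Fin m) F →ₐ[F] Matrix κ κ F) : GL (Fin m) F →* GL κ F :=
  Units.map ρ.toRingHom.toMonoidHom

theorem UG_val {m : ℕ} (ρ : Matrix (Fin m) (Fin m) F →ₐ[F] Matrix κ κ F) (a : GL (Fin m) F) :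
    (UG ρ a : Matrix κ κ F) = ρ (a : Matrix (Fin m) (Fin m) F) := rfl

/-- pairs -/
def PG {m : ℕ} (ρ : Matrix (Fin m) (Fin m) F →ₐ[F] Matrix κ κ F) : GL (Fin m) F × CenG ρ →* GL κ F :=
  MonoidHom.noncommCoprod (UG ρ) (CenG ρ).subtype (by
    intro a r
    apply Units.ext
    rw [Units.val_mul, Units.val_mul]
    exact (r.2 _ : _))

theorem PG_apply {m : ℕ} (ρ : Matrix (Fin m) (Fin m) F →ₐ[F] Matrix κ κ F) (a : GL (Fin m) F) (r : CenG ρ) :
    PG ρ (a, r) = UG ρ a * r := rfl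

/-- a commutator of commutators centralises `ρ'` -/
theorem comm3_cen (hT : Two F) {e φ : Fin 3 → F} (he : e ≠ 0) (hφ : φ ≠ 0) (h0 : φ ⬝ᵥ e = 0) {g : Fin 3 → GL κ F}
    (hg : ∀ i, ∃ a : GL (Fin 3) F, Fl e φ a ∧ ∃ r : CenG ρ', g i = PG ρ' (a, r)) :
    K (K (g 0) (g 1)) (g 2) ∈ CenG ρ' := by
  choose a ha r hr using hg
  rw [hr 0, hr 1, hr 2, ← map_K, ← map_K]
  have h1 : K (K (a 0, r 0) (a 1, r 1)) (a 2, r 2) = (K (K (a 0) (a 1)) (a 2), K (K (r 0) (r 1)) (r 2)) := rfl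
  rw [h1, Fl.class_two hT he hφ h0 (ha 0) (ha 1) (ha 2), PG_apply, map_one, one_mul]
  exact Subtype.property _

/-- the diagonal of `ρ` and its conjugate by an involution -/
def diagG {m : ℕ} {ρ : Matrix (Fin m) (Fin m) F →ₐ[F] Matrix κ κ F} {x : GL κ F} (hc : Comm ρ (cj x ρ)) :
    GL (Fin m) F →* GL κ F :=
  MonoidHom.mk' (fun a => UG ρ a * (x * UG ρ a * x⁻¹)) (by
    intro a b
    have h1 : (x * UG ρ a * x⁻¹) * UG ρ b = UG ρ b * (x * UG ρ a * x⁻¹) := by
      apply Units.ext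
      have h2 := hc (b : Matrix (Fin m) (Fin m) F) (a : Matrix (Fin m) (Fin m) F)
      rw [Units.val_mul, Units.val_mul]
      exact h2.symm
    rw [map_mul]
    calc UG ρ a * UG ρ b * (x * (UG ρ a * UG ρ b) * x⁻¹)
        = UG ρ a * (UG ρ b * (x * UG ρ a * x⁻¹)) * (x * UG ρ b * x⁻¹) := by group
      _ = _ := by rw [← h1]; group)

theorem diagG_apply {m : ℕ} {ρ : Matrix (Fin m) (Fin m) F →ₐ[F] Matrix κ κ F} {x : GL κ F} (hc : Comm ρ (cj x ρ))
    (a : GL (Fin m) F) : diagG hc a = UG ρ a * (x * UG ρ a * x⁻¹) := rfl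

theorem diagG_commute {m : ℕ} {ρ : Matrix (Fin m) (Fin m) F →ₐ[F] Matrix κ κ F} {x : GL κ F} (hc : Comm ρ (cj x ρ))
    (hxx : x * x = 1) (a : GL (Fin m) F) : x * diagG hc a * x⁻¹ = diagG hc a := by
  have hxi : x⁻¹ = x := by rw [inv_eq_iff_mul_eq_one, hxx]
  have h1 : (x * UG ρ a * x) * UG ρ a = UG ρ a * (x * UG ρ a * x) := by
    apply Units.ext
    have h2 := hc (a : Matrix (Fin m) (Fin m) F) (a : Matrix (Fin m) (Fin m) F)
    rw [cj_apply, conjA_apply, hxi] at h2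
    rw [Units.val_mul, Units.val_mul]
    exact h2.symm
  rw [diagG_apply, hxi]
  calc x * (UG ρ a * (x * UG ρ a * x)) * x = x * UG ρ a * x * UG ρ a * (x * x) := by group
    _ = _ := by rw [hxx, mul_one, h1]

/-- transvections are double commutators -/
theorem tv_double (a α : Fin 3 → F) (h : α ⬝ᵥ a = 0) : ∃ A : Fin 3 → GL (Fin 3) F, tv a α h = K (K (A 0) (A 1)) (A 2) := by
  obtain ⟨b, β, h1, h2, h3⟩ := exists_bridge a α le_rfl
  obtain ⟨b', β', h1', h2', h3'⟩ := exists_bridge a β le_rfl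
  refine ⟨![tv a β' h2', tv b' β h1', tv b α h1], ?_⟩
  change tv a α h = K (K (tv a β' h2') (tv b' β h1')) (tv b α h1)
  rw [K, K, tv_commutator h2 h1' h2' h3', tv_commutator h h1 h2 h3]

/-- **A swap is not a root of a good embedding** (`m = 3`). -/
theorem no_swap (hT : Two F) (h : GE M ρ) (h' : GE M ρ') {e' φ' : Fin 3 → F} (he' : e' ≠ 0) (hφ' : φ' ≠ 0)
    (hφe' : φ' ⬝ᵥ e' = 0) {x : GL κ F} (hx : x ∈ M) (hxY : (x : Matrix κ κ F) = 1 + rk ρ' e' φ')
    (hc : Comm ρ (cj x ρ))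
    (hP : rk ρ (Pi.single 0 1) (Pi.single 0 1) * rk (cj x ρ) (Pi.single 0 1) (Pi.single 0 1) * (x : Matrix κ κ F) =
      rk ρ (Pi.single 0 1) (Pi.single 0 1) * rk (cj x ρ) (Pi.single 0 1) (Pi.single 0 1)) : False := by
  have hYY := rk_sq (ρ := ρ') hφe'
  have hxx' : (x : Matrix κ κ F) * (x : Matrix κ κ F) = 1 := by
    rw [hxY, mul_add, add_mul, add_mul, hYY, mul_one, one_mul, mul_one, add_zero, add_assoc, hT.add_self, add_zero]
  have hxx : x * x = 1 := Units.ext (by rw [Units.val_mul, hxx', Units.val_one])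
  have hxi : x⁻¹ = x := by rw [inv_eq_iff_mul_eq_one, hxx]
  -- elements of the diagonal
  have hdiag : ∀ A : GL (Fin 3) F, ∃ a : GL (Fin 3) F, Fl e' φ' a ∧ ∃ r : CenG ρ', diagG hc A = PG ρ' (a, r) := by
    intro A
    have hA : UG ρ A ∈ M := by
      obtain ⟨g, hg, he⟩ := h.sl (A : Matrix (Fin 3) (Fin 3) F) (hT.det A)
      have : UG ρ A = g := Units.ext (by rw [he, UG_val])
      rw [this]; exact hg
    have hdM : diagG hc A ∈ M := M.mul_mem hA (M.mul_mem (M.mul_mem hx hA) (M.inv_mem hx))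
    have hcomm := diagG_commute hc hxx A
    have hcx : diagG hc A * x = x * diagG hc A := by
      have := congrArg (fun z => z * x) hcomm
      simp only [inv_mul_cancel_right] at this
      exact this.symm
    have hcx' : Commute ((diagG hc A : GL κ F) : Matrix κ κ F) (x : Matrix κ κ F) := by
      have := congrArg (fun z : GL κ F => (z : Matrix κ κ F)) hcx
      rw [Units.val_mul, Units.val_mul] at this
      exact this
    have hcY : Commute ((diagG hc A : GL κ F) : Matrix κ κ F) (rk ρ' e' φ') := by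
      have : rk ρ' e' φ' = (x : Matrix κ κ F) - 1 := by rw [hxY]; abel
      rw [this]
      exact hcx'.sub_right (Commute.one_right _)
    have hnorm := h'.normalises le_rfl hdM he' hφ' (c := 1) one_ne_zero (by rw [conjA_eq_self hcY, one_smul])
    obtain ⟨a, r, hr, he⟩ := exists_factor (by norm_num) hnorm
    refine ⟨a, ?_, ⟨r, hr⟩, Units.ext he⟩
    -- the component commutes with the transvection
    have h1 : rk ρ' ((a : Matrix (Fin 3) (Fin 3) F) *ᵥ e') φ' = rk ρ' e' (φ' ᵥ* (a : Matrix (Fin 3) (Fin 3) F)) := by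
      have h2 : ρ' (a : Matrix (Fin 3) (Fin 3) F) * rk ρ' e' φ' * (r : Matrix κ κ F) =
          rk ρ' e' φ' * ρ' (a : Matrix (Fin 3) (Fin 3) F) * (r : Matrix κ κ F) := by
        have h3 := hcY.eq
        rw [he, mul_assoc, ← hr.rk] at h3
        rw [mul_assoc, h3, mul_assoc]
      have h3 := congrArg (fun z => z * ((r⁻¹ : GL κ F) : Matrix κ κ F)) h2
      simp only [mul_assoc, Units.mul_inv, mul_one] at h3
      rwa [map_mul_rk, rk_mul_map] at h3
    have h2 : vecMulVec ((a : Matrix (Fin 3) (Fin 3) F) *ᵥ e') φ' =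
        vecMulVec e' (φ' ᵥ* (a : Matrix (Fin 3) (Fin 3) F)) := ρ_injective ρ' h1
    have h3 : (a : Matrix (Fin 3) (Fin 3) F) *ᵥ e' ≠ 0 := gl_mulVec_ne_zero a he'
    obtain ⟨v, hv⟩ := exists_dot_one hφ'
    have h4 := congrArg (fun Z => Z *ᵥ v) h2
    simp only [vecMulVec_mulVec, hv, op_smul_eq_smul, one_smul] at h4
    have h5 : (φ' ᵥ* (a : Matrix (Fin 3) (Fin 3) F)) ⬝ᵥ v = 1 := by
      apply hT.eq_one
      intro h6
      rw [h6, zero_smul] at h4
      exact h3 h4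
    rw [h5, one_smul] at h4
    refine ⟨h4, ?_⟩
    rw [h4] at h2
    obtain ⟨ε, hε⟩ := exists_dot_one' he'
    have h6 := congrArg (fun Z => ε ᵥ* Z) h2
    simp only [vecMul_vecMulVec, hε, one_smul] at h6
    exact h6.symm
  -- diagonal transvections centralise `ρ'`
  have hcen : ∀ (a α : Fin 3 → F) (h0 : α ⬝ᵥ a = 0), Cen ρ' ((diagG hc (tv a α h0) : GL κ F) : Matrix κ κ F) := by
    intro a α h0
    obtain ⟨A, hA⟩ := tv_double a α h0
    rw [hA, map_K, map_K]
    exact comm3_cen hT he' hφ' hφe' (g := fun i => diagG hc (A i)) fun i => hdiag (A i)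
  have h01 : (Pi.single 1 1 : Fin 3 → F) ⬝ᵥ Pi.single 0 1 = 0 := by simp
  have h02 : (Pi.single 2 1 : Fin 3 → F) ⬝ᵥ Pi.single 0 1 = 0 := by simp
  set e : Fin 3 → F := Pi.single 0 1 with he
  set N1 := rk ρ e (Pi.single 1 1) with hN1
  set N2 := rk ρ e (Pi.single 2 1) with hN2
  set N1' := rk (cj x ρ) e (Pi.single 1 1) with hN1'
  set N2' := rk (cj x ρ) e (Pi.single 2 1) with hN2'
  have hee : (Pi.single 0 1 : Fin 3 → F) ⬝ᵥ Pi.single 0 1 = 1 := by simp
  have hz1 : Cen ρ' (N1 + N1' + N1 * N1') := by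
    have h1 := hcen e (Pi.single 1 1) h01
    have h2 : ((diagG hc (tv e (Pi.single 1 1) h01) : GL κ F) : Matrix κ κ F) = 1 + (N1 + N1' + N1 * N1') := by
      change ρ (1 + vecMulVec e (Pi.single 1 1)) * (cj x ρ) (1 + vecMulVec e (Pi.single 1 1)) = _
      rw [map_add, map_add, map_one, map_one]
      change (1 + N1) * (1 + N1') = _
      noncomm_ring
    rw [h2] at h1
    have h3 := h1.sub (cen_one ρ')
    rwa [add_sub_cancel_left] at h3
  have hz2 : Cen ρ' (N2 + N2' + N2 * N2') := by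
    have h1 := hcen e (Pi.single 2 1) h02
    have h2 : ((diagG hc (tv e (Pi.single 2 1) h02) : GL κ F) : Matrix κ κ F) = 1 + (N2 + N2' + N2 * N2') := by
      change ρ (1 + vecMulVec e (Pi.single 2 1)) * (cj x ρ) (1 + vecMulVec e (Pi.single 2 1)) = _
      rw [map_add, map_add, map_one, map_one]
      change (1 + N2) * (1 + N2') = _
      noncomm_ring
    rw [h2] at h1
    have h3 := h1.sub (cen_one ρ')
    rwa [add_sub_cancel_left] at h3
  have b1 : N1 * N2 = 0 := by rw [hN1, hN2, rk_mul_rk, h01, zero_smul]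
  have b2 : N1' * N2' = 0 := by rw [hN1', hN2', rk_mul_rk, h01, zero_smul]
  have b3 : N1' * N2 = N2 * N1' := (hc _ _ : Commute N2 N1').eq.symm
  have b5 : N1' * N1 = N1 * N1' := (hc _ _ : Commute N1 N1').eq.symm
  have b6 : N2' * N2 = N2 * N2' := (hc _ _ : Commute N2 N2').eq.symm
  have hz : (N1 + N1' + N1 * N1') * (N2 + N2' + N2 * N2') = N1 * N2' + N2 * N1' := by
    have e1 : N1 * (N2 * N2') = 0 := by rw [← mul_assoc, b1, zero_mul]
    have e2 : N1' * (N2 * N2') = 0 := by rw [← mul_assoc, b3, mul_assoc, b2, mul_zero]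
    have e3 : N1 * N1' * N2 = 0 := by rw [mul_assoc, b3, ← mul_assoc, b1, zero_mul]
    have e4 : N1 * N1' * N2' = 0 := by rw [mul_assoc, b2, mul_zero]
    have e5 : N1 * N1' * (N2 * N2') = 0 := by rw [← mul_assoc, e3, zero_mul]
    rw [add_mul, add_mul, mul_add, mul_add, mul_add, mul_add, mul_add, mul_add, b1, e1, b2, e2, e3, e4, e5, b3]
    simp
  have hzcen : Cen ρ' (N1 * N2' + N2 * N1') := by rw [← hz]; exact hz1.mul hz2
  -- right multiplication by x
  have hxcj : ∀ b β : Fin 3 → F, rk (cj x ρ) b β * (x : Matrix κ κ F) = (x : Matrix κ κ F) * rk ρ b β := by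
    intro b β
    rw [rk_cj, conjA_apply, mul_assoc, Units.inv_mul, mul_one]
  have hxcj' : ∀ b β : Fin 3 → F, rk ρ b β * (x : Matrix κ κ F) = (x : Matrix κ κ F) * rk (cj x ρ) b β := by
    intro b β
    rw [rk_cj, conjA_apply, hxi, ← mul_assoc, ← mul_assoc, hxx', one_mul]
  have hNx : ∀ β γ : Fin 3 → F, rk ρ e β * rk (cj x ρ) e γ * (x : Matrix κ κ F) = rk ρ e γ * rk (cj x ρ) e β := by
    intro β γ
    have e1 : rk ρ e β * rk (cj x ρ) e γ = (rk ρ e e * rk (cj x ρ) e e) * (rk ρ e β * rk (cj x ρ) e γ) := by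
      have e2 : rk (cj x ρ) e e * rk ρ e β = rk ρ e β * rk (cj x ρ) e e := (hc _ _ : Commute (rk ρ e β) (rk (cj x ρ) e e)).eq.symm
      rw [mul_assoc, ← mul_assoc (rk (cj x ρ) e e), e2, mul_assoc (rk ρ e β), rk_mul_rk, ← mul_assoc, rk_mul_rk, hee,
        one_smul, one_smul]
    have e3 : rk ρ e β * rk (cj x ρ) e γ * (x : Matrix κ κ F) = (x : Matrix κ κ F) * (rk ρ e γ * rk (cj x ρ) e β) := by
      have e5 : rk (cj x ρ) e β * rk ρ e γ = rk ρ e γ * rk (cj x ρ) e β :=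
        (hc _ _ : Commute (rk ρ e γ) (rk (cj x ρ) e β)).eq.symm
      rw [mul_assoc, hxcj, ← mul_assoc, hxcj', mul_assoc, e5]
    have e4 : rk ρ e γ * rk (cj x ρ) e β = (rk ρ e e * rk (cj x ρ) e e) * (rk ρ e γ * rk (cj x ρ) e β) := by
      have e2 : rk (cj x ρ) e e * rk ρ e γ = rk ρ e γ * rk (cj x ρ) e e := (hc _ _ : Commute (rk ρ e γ) (rk (cj x ρ) e e)).eq.symm
      rw [mul_assoc, ← mul_assoc (rk (cj x ρ) e e), e2, mul_assoc (rk ρ e γ), rk_mul_rk, ← mul_assoc, rk_mul_rk, hee,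
        one_smul, one_smul]
    rw [e1, mul_assoc, e3, ← mul_assoc, hP, ← e4]
  have hzx : (N1 * N2' + N2 * N1') * (x : Matrix κ κ F) = N1 * N2' + N2 * N1' := by
    rw [add_mul, hN1, hN2', hNx, hN2, hN1', hNx, add_comm]
  have hzY : rk ρ' e' φ' * (N1 * N2' + N2 * N1') = 0 := by
    rw [hzcen.rk]
    have : rk ρ' e' φ' = (x : Matrix κ κ F) - 1 := by rw [hxY]; abel
    rw [this, mul_sub, hzx, mul_one, sub_self]
  have hz0 := hzcen.eq_zero he' hφ' hzY
  -- but z is not zero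
  have h1 : rk ρ e e * N2' = 0 := by
    have h2 : (N1 * N2' + N2 * N1') * rk ρ (Pi.single 1 1) e = 0 := by rw [hz0, zero_mul]
    have e1 : N2' * rk ρ (Pi.single 1 1) e = rk ρ (Pi.single 1 1) e * N2' := (hc _ _ : Commute (rk ρ (Pi.single 1 1) e) N2').eq.symm
    have e2 : N1' * rk ρ (Pi.single 1 1) e = rk ρ (Pi.single 1 1) e * N1' := (hc _ _ : Commute (rk ρ (Pi.single 1 1) e) N1').eq.symm
    rw [add_mul, mul_assoc, e1, mul_assoc, e2, ← mul_assoc, ← mul_assoc, hN1, hN2, rk_mul_rk, rk_mul_rk] at h2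
    have e3 : (Pi.single 1 1 : Fin 3 → F) ⬝ᵥ Pi.single 1 1 = 1 := by simp
    have e4 : (Pi.single 2 1 : Fin 3 → F) ⬝ᵥ Pi.single 1 1 = 0 := by simp
    rwa [e3, e4, one_smul, zero_smul, zero_mul, add_zero] at h2
  have he0 : e ≠ 0 := by rw [he]; simp
  exact pair_ne_zero hc he0 he0 he0 (by simp) h1

end NoSwap

end Cfsg.Agent.H873.Wr
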